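import Cfsg.Agent.Lib.E6Cubic.Gen

/-!
# The stabiliser chain
-/

set_option autoImplicit false
set_option linter.unusedSectionVars false
set_option linter.unusedVariables false
set_option maxRecDepth 100000

namespace Cfsg.Agent.Lib.E6Cubic.Chain

open Cfsg.Lie Matrix Cfsg.Agent.Lib.Chevalley.Reflect Cfsg.Agent.Lib.ChevIso.Act Cfsg.Agent.Lib.E6Cubic.Tbl
open Cfsg.Agent.Lib.E6Cubic.Fast Cfsg.Agent.Lib.E6Cubic.Poly Cfsg.Agent.Lib.E6Cubic.Gp
open Cfsg.Agent.Lib.E6Cubic.Gen

variable {F : Type*} [Field F]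

/-- The subgroup generated by the root elements. -/
def G0 (F : Type*) [Field F] : Subgroup (GL I27 F) := Subgroup.closure {g | ∃ (s : Fin 72) (t : F), g = Y F s t}

lemma Y_mem_G0 (s : Fin 72) (t : F) : Y F s t ∈ G0 F := Subgroup.subset_closure ⟨s, t, rfl⟩

lemma G0_le : G0 F ≤ E6univ F := by
  apply (Subgroup.closure_le _).2
  rintro _ ⟨s, t, rfl⟩
  exact Y_mem s t

/-- Elements fixing the basis vectors in a list. -/
def Fix (I : List ℕ) (g : GL I27 F) : Prop := ∀ i ∈ I, ap g (ei F i) = ei F i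

lemma Fix.mul {I : List ℕ} {g h : GL I27 F} (hg : Fix I g) (hh : Fix I h) : Fix I (g * h) := by
  intro i hi
  rw [ap_mul, hh i hi, hg i hi]

/-- Elements of the chain subgroup. -/
def St (F : Type*) [Field F] (I : List ℕ) (h : GL I27 F) : Prop := h ∈ G0 F ∧ Fix I h

lemma St.mul {I : List ℕ} {g h : GL I27 F} (hg : St F I g) (hh : St F I h) : St F I (g * h) :=
  ⟨Subgroup.mul_mem _ hg.1 hh.1, hg.2.mul hh.2⟩

/-- A root avoids the fixed vectors. -/
noncomputable def allowedI (r : ℕ) (I : List ℕ) : Bool :=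
  I.all fun i => (bl r).all fun p => !(Nat.beq p.2.1 i)

lemma St_Y {I : List ℕ} (hI : ∀ i ∈ I, i < 27) (s : Fin 72) (hs : allowedI s I = true) (t : F) : St F I (Y F s t) := by
  refine ⟨Y_mem_G0 s t, ?_⟩
  intro i hi
  apply co_inj
  have h1 := hI i hi
  have e : ap (Y F s t) (ei F i) = ((Y F s t : GL I27 F) : Matrix I27 I27 F) *ᵥ ei F i := rfl
  rw [e, co_Y, co_ei h1]
  funext n
  have : evS (bl s) (dl F i) n = 0 := by
    simp only [allowedI, List.all_eq_true] at hs
    simp only [evS]
    apply List.sum_eq_zero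
    intro y hy
    obtain ⟨p, hp, rfl⟩ := List.mem_map.1 hy
    have h2 := hs i hi p hp
    have h3 : p.2.1 ≠ i := by
      intro h4
      rw [h4] at h2
      simp at h2
    simp [dl, h3]
  rw [this]
  simp

/-! ### Moves -/

lemma mv_at {p q : ℕ} (h : Sk p q = true) :
    yL (bl (rootT p q)) p = [(q, epsT p q)] ∧ (epsT p q = 1 ∨ epsT p q = -1) ∧
      ∀ n ∈ L27, n = p ∨ ¬ (n = q ∨ Sk n q = true) ∨ yL (bl (rootT p q)) n = [] := by
  have hlt := rootT_lt h
  have h1 := mv_all
  simp only [List.all_eq_true, List.mem_range] at h1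
  by_cases hq : q < 27
  · have h2 := h1 p hlt.1 q hq
    simp only [mvChk, h, Bool.not_true, Bool.false_or, Bool.and_eq_true, decide_eq_true_eq, List.all_eq_true,
      Bool.or_eq_true] at h2
    obtain ⟨⟨h3, h4⟩, h5⟩ := h2
    refine ⟨h3, h4, ?_⟩
    intro n hn
    rcases h5 n hn with (h6 | h6) | h6
    · exact Or.inl (by simpa using h6)
    · right; left
      simpa using h6
    · right; right
      simpa using h6
  · exfalso
    have : (rootL.getD p []).length = 27 := by
      have h7 : (List.range 27).all (fun p => decide ((rootL.getD p []).length = 27)) = true := by decide +kernel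
      simp only [List.all_eq_true, List.mem_range, decide_eq_true_eq] at h7
      exact h7 p hlt.1
    have h8 : (rootL.getD p []).getD q 72 = 72 := List.getD_eq_default _ _ (by omega)
    have h9 := hlt.2
    unfold rootT at h9
    rw [h8] at h9
    omega

lemma evS_at {p q : ℕ} (h : Sk p q = true) (x : ℕ → F) : evS (bl (rootT p q)) x p = ((epsT p q : ℤ) : F) * x q := by
  rw [← evL_yL, (mv_at h).1]
  simp [evL]

lemma evS_other {p q n : ℕ} (h : Sk p q = true) (hn : n < 27) (h1 : n ≠ p) (h2 : n = q ∨ Sk n q = true) (x : ℕ → F) :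
    evS (bl (rootT p q)) x n = 0 := by
  rw [← evL_yL]
  rcases (mv_at h).2.2 n (mem_L27 hn) with h3 | h3 | h3
  · exact absurd h3 h1
  · exact absurd h2 h3
  · rw [h3]
    simp [evL]

lemma eps_ne {p q : ℕ} (h : Sk p q = true) : ((epsT p q : ℤ) : F) ≠ 0 := by
  rcases (mv_at h).2.1 with h1 | h1 <;> rw [h1] <;> simp

/-- The root element moving the coordinate `q` to `p`. -/
noncomputable def Yp (p q : ℕ) (h : Sk p q = true) (t : F) : GL I27 F := Y F ⟨rootT p q, (rootT_lt h).2⟩ t

lemma St_Yp {I : List ℕ} (hI : ∀ i ∈ I, i < 27) {p q : ℕ} (h : Sk p q = true) (hs : allowedI (rootT p q) I = true) (t : F) :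
    St F I (Yp p q h t) := St_Y hI _ hs t

lemma co_Yp {p q : ℕ} (h : Sk p q = true) (t : F) (v : I27 → F) (n : ℕ) :
    co (ap (Yp p q h t) v) n = co v n + t * evS (bl (rootT p q)) (co v) n := by
  have e : ap (Yp p q h t) v = ((Y F ⟨rootT p q, (rootT_lt h).2⟩ t : GL I27 F) : Matrix I27 I27 F) *ᵥ v := rfl
  rw [e, co_Y]

/-- Making a coordinate equal to one. -/
lemma moveTo {I : List ℕ} (hI : ∀ i ∈ I, i < 27) {q p : ℕ} (h : Sk q p = true) (hs : allowedI (rootT q p) I = true)
    (v : I27 → F) (hp : co v p ≠ 0) : ∃ k, St F I k ∧ co (ap k v) q = 1 := by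
  refine ⟨Yp q p h ((1 - co v q) / (((epsT q p : ℤ) : F) * co v p)), St_Yp hI h hs _, ?_⟩
  rw [co_Yp, evS_at h]
  have h1 := eps_ne (F := F) h
  field_simp
  ring

/-- The check of a path from `p` to `j`. -/
noncomputable def pathOK (I : List ℕ) (p j : ℕ) : Bool :=
  (Sk j p && allowedI (rootT j p) I) ||
    L27.any fun q => Sk q p && allowedI (rootT q p) I && Sk j q && allowedI (rootT j q) I

lemma path_ex {I : List ℕ} (hI : ∀ i ∈ I, i < 27) {p j : ℕ} (h : pathOK I p j = true) (v : I27 → F) (hp : co v p ≠ 0) :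
    ∃ k, St F I k ∧ co (ap k v) j = 1 := by
  simp only [pathOK, Bool.or_eq_true, Bool.and_eq_true, List.any_eq_true] at h
  rcases h with ⟨h1, h2⟩ | ⟨q, -, ⟨⟨h1, h2⟩, h3⟩, h4⟩
  · exact moveTo hI h1 h2 v hp
  · obtain ⟨k₁, hk₁, e₁⟩ := moveTo hI h1 h2 v hp
    have hne : co (ap k₁ v) q ≠ 0 := by
      rw [e₁]
      exact one_ne_zero
    obtain ⟨k₂, hk₂, e₂⟩ := moveTo hI h3 h4 _ hne
    exact ⟨k₂ * k₁, hk₂.mul hk₁, by rw [ap_mul, e₂]⟩

/-- Killing coordinates skew to `j`. -/
lemma kill {I : List ℕ} (hI : ∀ i ∈ I, i < 27) {j : ℕ} (hj27 : j < 27) (S : List ℕ)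
    (hS : ∀ l ∈ S, Sk l j = true ∧ allowedI (rootT l j) I = true) (v : I27 → F) (hj : co v j ≠ 0) :
    ∃ k, St F I k ∧ co (ap k v) j = co v j ∧ (∀ l ∈ S, co (ap k v) l = 0) ∧
      ∀ p, Sk p j = true → p ∉ S → co (ap k v) p = co v p := by
  induction S with
  | nil =>
    refine ⟨1, ⟨Subgroup.one_mem _, fun i _ => by simp [ap]⟩, by simp [ap], by simp, fun p _ _ => by simp [ap]⟩
  | cons l S ih =>
    obtain ⟨k, hk, e1, e2, e3⟩ := ih (fun x hx => hS x (List.mem_cons_of_mem _ hx))
    obtain ⟨hl1, hl2⟩ := hS l List.mem_cons_self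
    have hne : co (ap k v) j ≠ 0 := by rwa [e1]
    have hl27 := (rootT_lt hl1).1
    have hlj : j ≠ l := ((class_at hl27 hj27).2.1 hl1).2.symm
    set t : F := -co (ap k v) l / (((epsT l j : ℤ) : F) * co (ap k v) j) with ht
    refine ⟨Yp l j hl1 t * k, (St_Yp hI hl1 hl2 t).mul hk, ?_, ?_, ?_⟩
    · rw [ap_mul, co_Yp, evS_other hl1 hj27 hlj (Or.inl rfl), e1]
      simp
    · intro l' hl'
      rw [ap_mul, co_Yp]
      by_cases h1 : l' = l
      · subst h1
        rw [evS_at hl1, ht]
        have h2 := eps_ne (F := F) hl1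
        field_simp
        ring
      · have h2 : l' ∈ S := (List.mem_cons.1 hl').resolve_left h1
        rw [evS_other hl1 (rootT_lt (hS l' hl').1).1 h1 (Or.inr (hS l' hl').1), e2 l' h2]
        simp
    · intro p hp1 hp2
      have h1 : p ≠ l := fun h => hp2 (by rw [h]; exact List.mem_cons_self)
      have h2 : p ∉ S := fun h => hp2 (List.mem_cons_of_mem _ h)
      rw [ap_mul, co_Yp, evS_other hl1 (rootT_lt hp1).1 h1 (Or.inr hp1), e3 p hp1 h2]
      simp

/-! ### The singular lemma -/

lemma sum_pc (Q : List (ℕ × ℕ × ℤ)) {j l : ℕ} (x : ℕ → F)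
    (h : ∀ e ∈ Q, ((e.1 = j ∧ e.2.1 = l) ∨ (e.1 = l ∧ e.2.1 = j)) ∨ x e.1 = 0 ∨ x e.2.1 = 0) :
    (Q.map fun e => (e.2.2 : F) * (x e.1 * x e.2.1)).sum = ((pc Q j l : ℤ) : F) * (x j * x l) := by
  induction Q with
  | nil => simp [pc, lfoldr]
  | cons e Q ih =>
    have ih' := ih (fun a ha => h a (List.mem_cons_of_mem _ ha))
    have h1 : pc (e :: Q) j l = Bool.rec (pc Q j l) (e.2.2 + pc Q j l)
      (Bool.rec (Bool.rec false (Nat.beq e.2.1 j) (Nat.beq e.1 l)) true
        (Bool.rec false (Nat.beq e.2.1 l) (Nat.beq e.1 j))) := rfl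
    rw [List.map_cons, List.sum_cons, ih', h1]
    by_cases c1 : e.1 = j ∧ e.2.1 = l
    · obtain ⟨c2, c3⟩ := c1
      have b1 : Nat.beq e.1 j = true := by simpa using c2
      have b2 : Nat.beq e.2.1 l = true := by simpa using c3
      rw [b1]
      simp only [b2]
      rw [c2, c3]
      push_cast
      ring
    · by_cases c4 : e.1 = l ∧ e.2.1 = j
      · obtain ⟨c5, c6⟩ := c4
        have b3 : Nat.beq e.1 l = true := by simpa using c5
        have b4 : Nat.beq e.2.1 j = true := by simpa using c6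
        have e5 : (Bool.rec (Bool.rec false (Nat.beq e.2.1 j) (Nat.beq e.1 l)) true
            (Bool.rec false (Nat.beq e.2.1 l) (Nat.beq e.1 j)) : Bool) = true := by
          rw [b3, b4]
          cases (Bool.rec false (Nat.beq e.2.1 l) (Nat.beq e.1 j) : Bool) <;> rfl
        rw [e5]
        rw [c5, c6]
        push_cast
        ring
      · have e5 : (Bool.rec (Bool.rec false (Nat.beq e.2.1 j) (Nat.beq e.1 l)) true
            (Bool.rec false (Nat.beq e.2.1 l) (Nat.beq e.1 j)) : Bool) = false := by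
          have d1 : (Bool.rec false (Nat.beq e.2.1 l) (Nat.beq e.1 j) : Bool) = false := by
            by_cases c6 : e.1 = j
            · have : e.2.1 ≠ l := fun hh => c1 ⟨c6, hh⟩
              have b5 : Nat.beq e.1 j = true := by simpa using c6
              rw [b5, beq_false this]
            · rw [beq_false c6]
          have d2 : (Bool.rec false (Nat.beq e.2.1 j) (Nat.beq e.1 l) : Bool) = false := by
            by_cases c6 : e.1 = l
            · have : e.2.1 ≠ j := fun hh => c4 ⟨c6, hh⟩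
              have b5 : Nat.beq e.1 l = true := by simpa using c6
              rw [b5, beq_false this]
            · rw [beq_false c6]
          rw [d1, d2]
        rw [e5]
        rcases h e List.mem_cons_self with c7 | c7 | c7
        · rcases c7 with c7 | c7
          · exact absurd c7 c1
          · exact absurd c7 c4
        · rw [c7]
          simp
        · rw [c7]
          simp

/-- A singular vector with vanishing skew coordinates has vanishing meeting coordinates. -/
lemma sing {x : ℕ → F} {j l : ℕ} (hj27 : j < 27) (hl : Mt l j = true) (hj : x j ≠ 0)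
    (hsk : ∀ p, Sk p j = true → x p = 0) (h0 : An x (dl F (thirdT l j)) = 0) : x l = 0 := by
  have hl27 := (thirdT_lt hl).1
  have h1 := sing_all
  simp only [List.all_eq_true, List.mem_range] at h1
  have h2 := h1 j hj27 l hl27
  rw [hl] at h2
  simp only [Bool.not_true, Bool.false_or, singChk, Bool.and_eq_true, decide_eq_true_eq, List.all_eq_true,
    Bool.or_eq_true] at h2
  obtain ⟨⟨h3, h4⟩, h5⟩ := h2
  rw [An_dl, sum_pc _ x] at h0
  · have h6 : ((pc (quadT (thirdT l j)) j l : ℤ) : F) ≠ 0 := by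
      rcases h5 with h7 | h7 <;> rw [h7] <;> simp
    rcases mul_eq_zero.1 h0 with h7 | h7
    · exact absurd h7 h6
    · rcases mul_eq_zero.1 h7 with h8 | h8
      · exact absurd h8 hj
      · exact h8
  · intro e he
    rcases h4 e he with (h7 | h7) | h7
    · left
      simpa using h7
    · right; left
      exact hsk _ h7
    · right; right
      exact hsk _ h7

end Cfsg.Agent.Lib.E6Cubic.Chain
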