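import Cfsg.Agent.Lib.E6Cubic.Tbl

/-!
# Fast checks of sparse integer matrices
-/

set_option autoImplicit false
set_option linter.unusedSectionVars false
set_option linter.unusedVariables false

namespace Cfsg.Agent.Lib.E6Cubic.Fast

open Cfsg.Lie Matrix Cfsg.Agent.Lib.Chevalley.Reflect Cfsg.Agent.Lib.ChevIso.Act Cfsg.Agent.Lib.E6Cubic.Tbl

noncomputable section

lemma beq_false {a b : ℕ} (h : a ≠ b) : Nat.beq a b = false := by
  cases hb : Nat.beq a b with
  | false => rfl
  | true => exact absurd (Nat.eq_of_beq_eq_true hb) h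

/-- Entries of a sparse matrix, kernel-friendly. -/
def evF (A : SpM) (i j : ℕ) : ℤ :=
  List.rec 0 (fun p _ ih => Bool.rec ih (p.2.2 + ih) (Bool.rec false (Nat.beq p.2.1 j) (Nat.beq p.1 i))) A

lemma evF_eq (A : SpM) (i j : ℕ) : evF A i j = evZ A i j := by
  induction A with
  | nil => rfl
  | cons p A ih =>
    have e1 : evF (p :: A) i j = Bool.rec (evF A i j) (p.2.2 + evF A i j) (Bool.rec false (Nat.beq p.2.1 j) (Nat.beq p.1 i)) := rfl
    rw [e1, ih]
    have e2 : evZ (p :: A) i j = (if p.1 = i ∧ p.2.1 = j then p.2.2 else 0) + evZ A i j := by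
      simp [evZ]
    rw [e2]
    by_cases h1 : p.1 = i
    · by_cases h2 : p.2.1 = j
      · subst h1; subst h2
        simp [Nat.beq_refl]
      · have : Nat.beq p.2.1 j = false := beq_false h2
        simp [h1, h2, this]
    · have : Nat.beq p.1 i = false := beq_false h1
      simp [h1, this]

/-- The sparse product. -/
def spMul (A B : SpM) : SpM :=
  lflat (fun p => lflat (fun q => Bool.rec [] [(p.1, q.2.1, Int.mul p.2.2 q.2.2)] (Nat.beq p.2.1 q.1)) B) A

lemma evZ_append (A B : SpM) (i j : ℕ) : evZ (A ++ B) i j = evZ A i j + evZ B i j := by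
  simp [evZ, List.map_append, List.sum_append]

lemma evZ_nil (i j : ℕ) : evZ [] i j = 0 := rfl

lemma evZ_cons (p : ℕ × ℕ × ℤ) (A : SpM) (i j : ℕ) :
    evZ (p :: A) i j = (if p.1 = i ∧ p.2.1 = j then p.2.2 else 0) + evZ A i j := by
  simp [evZ]

/-- The product with one row. -/
def rowMul (p : ℕ × ℕ × ℤ) (B : SpM) : SpM :=
  lflat (fun q => Bool.rec [] [(p.1, q.2.1, Int.mul p.2.2 q.2.2)] (Nat.beq p.2.1 q.1)) B

lemma evZ_rowMul (p : ℕ × ℕ × ℤ) (B : SpM) (i j : ℕ) :
    evZ (rowMul p B) i j = if p.1 = i then p.2.2 * evZ B p.2.1 j else 0 := by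
  induction B with
  | nil =>
    simp [rowMul, lflat, evZ_nil]
  | cons q B ih =>
    have e1 : rowMul p (q :: B) = (Bool.rec [] [(p.1, q.2.1, Int.mul p.2.2 q.2.2)] (Nat.beq p.2.1 q.1) : SpM) ++ rowMul p B := by
      simp only [rowMul, lflat_eq, List.flatMap_cons]
    rw [e1, evZ_append, ih, evZ_cons]
    by_cases h : p.2.1 = q.1
    · have h' : Nat.beq p.2.1 q.1 = true := by simpa using h
      rw [h']
      have e2 : Int.mul p.2.2 q.2.2 = p.2.2 * q.2.2 := rfl
      simp only [evZ_cons, evZ_nil, add_zero, e2]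
      by_cases h1 : p.1 = i
      · by_cases h2 : q.2.1 = j
        · simp [h1, h2, h, mul_add]
        · simp [h1, h2, h]
      · simp [h1]
    · have h' : Nat.beq p.2.1 q.1 = false := beq_false h
      rw [h']
      have e3 : (Bool.rec [] [(p.1, q.2.1, Int.mul p.2.2 q.2.2)] false : SpM) = [] := rfl
      rw [e3, evZ_nil, zero_add]
      have : ¬ (q.1 = p.2.1 ∧ q.2.1 = j) := fun hh => h hh.1.symm
      simp [this]

lemma evZ_spMul_left (A B : SpM) (i j : ℕ) :
    evZ (spMul A B) i j = (A.map fun p => if p.1 = i then p.2.2 * evZ B p.2.1 j else 0).sum := by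
  induction A with
  | nil => simp [spMul, lflat, evZ_nil]
  | cons p A ih =>
    have e1 : spMul (p :: A) B = rowMul p B ++ spMul A B := by
      simp only [spMul, rowMul, lflat_eq, List.flatMap_cons]
    rw [e1, evZ_append, evZ_rowMul, ih]
    simp

lemma Lz_eq (bl B : SpM) (i j : ℕ) : Lz bl (evZ B) i j = evZ (spMul bl B) i j := by
  rw [evZ_spMul_left]
  simp only [Lz]
  congr 1
  apply List.map_congr_left
  intro p _
  by_cases h : p.1 = i
  · by_cases h2 : p.2.2 = 0 <;> simp [h, h2]
  · simp [h]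

lemma evZ_spMul_right (A B : SpM) (i j : ℕ) :
    evZ (spMul A B) i j = (B.map fun q => if q.2.1 = j then evZ A i q.1 * q.2.2 else 0).sum := by
  induction A with
  | nil =>
    simp [spMul, lflat, evZ_nil]
  | cons p A ih =>
    have e1 : spMul (p :: A) B = rowMul p B ++ spMul A B := by
      simp only [spMul, rowMul, lflat_eq, List.flatMap_cons]
    rw [e1, evZ_append, ih, evZ_rowMul]
    have key : ∀ B : SpM, (if p.1 = i then p.2.2 * evZ B p.2.1 j else 0) =
        (B.map fun q => if q.2.1 = j then (if p.1 = i ∧ p.2.1 = q.1 then p.2.2 else 0) * q.2.2 else 0).sum := by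
      intro B
      induction B with
      | nil => simp [evZ_nil]
      | cons q B ih2 =>
        simp only [List.map_cons, List.sum_cons, ← ih2, evZ_cons]
        by_cases h1 : p.1 = i
        · by_cases h2 : q.2.1 = j
          · by_cases h3 : p.2.1 = q.1
            · simp [h1, h2, h3, mul_add]
            · have : ¬ q.1 = p.2.1 := fun h => h3 h.symm
              simp [h1, h2, h3, this]
          · simp [h1, h2]
        · simp [h1]
    rw [key B, ← List.sum_map_add]
    congr 1
    apply List.map_congr_left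
    intro q _
    simp only [evZ_cons]
    by_cases h : q.2.1 = j
    · simp only [h, if_true, add_mul]
    · simp [h]

lemma Rz_eq (bl A : SpM) (i j : ℕ) : Rz bl (evZ A) i j = evZ (spMul A bl) i j := by
  rw [evZ_spMul_right]
  simp only [Rz]
  congr 1
  apply List.map_congr_left
  intro p _
  by_cases h : p.2.1 = j
  · by_cases h2 : p.2.2 = 0 <;> simp [h, h2]
  · simp [h]

/-- A multiple of a sparse matrix. -/
def spScale (m : ℤ) (A : SpM) : SpM := lmap (fun p => (p.1, p.2.1, Int.mul m p.2.2)) A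

lemma evZ_spScale (m : ℤ) (A : SpM) (i j : ℕ) : evZ (spScale m A) i j = m * evZ A i j := by
  induction A with
  | nil => simp [spScale, lmap, evZ_nil]
  | cons p A ih =>
    have e1 : spScale m (p :: A) = (p.1, p.2.1, Int.mul m p.2.2) :: spScale m A := rfl
    rw [e1, evZ_cons, ih, evZ_cons, mul_add]
    congr 1
    have e2 : Int.mul m p.2.2 = m * p.2.2 := rfl
    split_ifs <;> simp [e2]

/-- The part of degree `d` of the image of a column. -/
def szL (d : ℕ) (col : Cl) : SpM :=
  lflat (fun e => Bool.rec [] (spScale e.m (pl e.row)) (Nat.beq e.deg d)) col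

lemma Sz_eq (d : ℕ) (col : Cl) (i j : ℕ) : Sz Pz d col i j = evZ (szL d col) i j := by
  induction col with
  | nil => simp [Sz, szL, lflat, evZ_nil]
  | cons e col ih =>
    have e1 : szL d (e :: col) = (Bool.rec [] (spScale e.m (pl e.row)) (Nat.beq e.deg d) : SpM) ++ szL d col := by
      simp only [szL, lflat_eq, List.flatMap_cons]
    rw [e1, evZ_append, ← ih]
    have e2 : Sz Pz d (e :: col) i j = (if e.deg = d then e.m * Pz e.row i j else 0) + Sz Pz d col i j := by
      simp [Sz]
    rw [e2]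
    congr 1
    by_cases h : e.deg = d
    · have h' : Nat.beq e.deg d = true := by simpa using h
      rw [h', if_pos h]
      exact (evZ_spScale _ _ _ _).symm ▸ rfl
    · have h' : Nat.beq e.deg d = false := beq_false h
      rw [h', if_neg h]
      rfl

/-- The equality of two sparse matrices. -/
def spEq (A B : SpM) : Bool :=
  lall (fun e => decide (evF A e.1 e.2.1 = evF B e.1 e.2.1)) (lapp A B)

lemma evZ_eq_zero_of_not_mem {A : SpM} {i j : ℕ} (h : ∀ e ∈ A, ¬ (e.1 = i ∧ e.2.1 = j)) : evZ A i j = 0 := by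
  simp only [evZ]
  apply List.sum_eq_zero
  intro x hx
  obtain ⟨e, he, rfl⟩ := List.mem_map.1 hx
  simp [h e he]

lemma spEq_sound {A B : SpM} (h : spEq A B = true) (i j : ℕ) : evZ A i j = evZ B i j := by
  simp only [spEq, lall_eq, lapp_eq, List.all_eq_true, decide_eq_true_eq, evF_eq] at h
  by_cases h1 : ∃ e ∈ A ++ B, e.1 = i ∧ e.2.1 = j
  · obtain ⟨e, he, rfl, rfl⟩ := h1
    exact h e he
  · push Not at h1
    have h2 : ∀ e ∈ A, ¬ (e.1 = i ∧ e.2.1 = j) := fun e he hh => h1 e (List.mem_append_left _ he) hh.1 hh.2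
    have h3 : ∀ e ∈ B, ¬ (e.1 = i ∧ e.2.1 = j) := fun e he hh => h1 e (List.mem_append_right _ he) hh.1 hh.2
    rw [evZ_eq_zero_of_not_mem h2, evZ_eq_zero_of_not_mem h3]

/-- The fast checks for one column. -/
def fchk (r k : ℕ) : Bool :=
  lall (fun e => Bool.rec (Nat.beq e.deg 2) true (Nat.beq e.deg 1)) (cl r k) &&
  spEq (spMul (bl r) (pl k)) (lapp (szL 1 (cl r k)) (spMul (pl k) (bl r))) &&
  spEq (lapp (szL 2 (cl r k)) (spMul (szL 1 (cl r k)) (bl r))) [] &&
  spEq (spMul (szL 2 (cl r k)) (bl r)) []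

/-- Soundness of the fast checks. -/
theorem fchk_sound {r k : ℕ} (h : fchk r k = true) :
    (∀ e ∈ cl r k, e.deg = 1 ∨ e.deg = 2) ∧
    (∀ i j, Lz (bl r) (Pz k) i j = Sz Pz 1 (cl r k) i j + Rz (bl r) (Pz k) i j) ∧
    (∀ i j, Sz Pz 2 (cl r k) i j + Rz (bl r) (Sz Pz 1 (cl r k)) i j = 0) ∧
    (∀ i j, Rz (bl r) (Sz Pz 2 (cl r k)) i j = 0) := by
  simp only [fchk, Bool.and_eq_true] at h
  obtain ⟨⟨⟨h0, h1⟩, h2⟩, h3⟩ := h
  have hPz : Pz k = evZ (pl k) := rfl
  have hS : ∀ d, Sz Pz d (cl r k) = evZ (szL d (cl r k)) := by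
    intro d
    funext i j
    exact Sz_eq d _ i j
  refine ⟨?_, ?_, ?_, ?_⟩
  · intro e he
    rw [lall_eq, List.all_eq_true] at h0
    have h4 := h0 e he
    by_cases h5 : e.deg = 1
    · exact Or.inl h5
    · have h6 : Nat.beq e.deg 1 = false := beq_false h5
      rw [h6] at h4
      have h7 : Nat.beq e.deg 2 = true := h4
      exact Or.inr (by simpa using h7)
  · intro i j
    have := spEq_sound h1 i j
    rw [lapp_eq, evZ_append] at this
    rw [hPz, hS, Lz_eq, Rz_eq, this]
  · intro i j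
    have := spEq_sound h2 i j
    rw [lapp_eq, evZ_append, evZ_nil] at this
    rw [hS, hS, Rz_eq, this]
  · intro i j
    have := spEq_sound h3 i j
    rw [evZ_nil] at this
    rw [hS, Rz_eq, this]

end

end Cfsg.Agent.Lib.E6Cubic.Fast
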