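import Cfsg.Agent.Lib.E6Cubic.Gp

/-!
# The isometry group of the cubic form is generated by the root elements

A stabiliser chain along the `27` lines of the cubic surface.
-/

set_option autoImplicit false
set_option linter.unusedSectionVars false
set_option linter.unusedVariables false
set_option maxRecDepth 100000

namespace Cfsg.Agent.Lib.E6Cubic.Gen

open Cfsg.Lie Matrix Cfsg.Agent.Lib.Chevalley.Reflect Cfsg.Agent.Lib.ChevIso.Act Cfsg.Agent.Lib.E6Cubic.Tbl
open Cfsg.Agent.Lib.E6Cubic.Fast Cfsg.Agent.Lib.E6Cubic.Poly Cfsg.Agent.Lib.E6Cubic.Gp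

variable {F : Type*} [Field F]

/-! ### Combinatorial data -/

/-- The monomials through a coordinate. -/
def quadL (L : List (ℕ × ℕ × ℕ × ℤ)) (m : ℕ) : List (ℕ × ℕ × ℤ) :=
  lflat (fun τ : ℕ × ℕ × ℕ × ℤ =>
    (Bool.rec [] [(τ.2.1, τ.2.2.1, τ.2.2.2)] (Nat.beq τ.1 m) : List (ℕ × ℕ × ℤ)) ++
    (Bool.rec [] [(τ.1, τ.2.2.1, τ.2.2.2)] (Nat.beq τ.2.1 m) : List (ℕ × ℕ × ℤ)) ++
    (Bool.rec [] [(τ.1, τ.2.1, τ.2.2.2)] (Nat.beq τ.2.2.1 m) : List (ℕ × ℕ × ℤ))) L

/-- The monomials through a coordinate. -/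
def quadT (m : ℕ) : List (ℕ × ℕ × ℤ) := quadL triL m

/-- The function with value `1` at `i`. -/
def dl (F : Type*) [Field F] (i : ℕ) : ℕ → F := fun n => if n = i then 1 else 0

lemma quadL_cons (τ : ℕ × ℕ × ℕ × ℤ) (L : List (ℕ × ℕ × ℕ × ℤ)) (m : ℕ) :
    quadL (τ :: L) m = (Bool.rec [] [(τ.2.1, τ.2.2.1, τ.2.2.2)] (Nat.beq τ.1 m) : List (ℕ × ℕ × ℤ)) ++
    (Bool.rec [] [(τ.1, τ.2.2.1, τ.2.2.2)] (Nat.beq τ.2.1 m) : List (ℕ × ℕ × ℤ)) ++
    (Bool.rec [] [(τ.1, τ.2.1, τ.2.2.2)] (Nat.beq τ.2.2.1 m) : List (ℕ × ℕ × ℤ)) ++ quadL L m := by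
  simp only [quadL, lflat_eq, List.flatMap_cons]

lemma brec_list {α : Type*} (a b : ℕ) (l : List α) :
    (Bool.rec [] l (Nat.beq a b) : List α) = if a = b then l else [] := by
  by_cases h : a = b
  · have h' : Nat.beq a b = true := by simpa using h
    rw [h', if_pos h]
  · rw [beq_false h, if_neg h]

lemma An_dl (x : ℕ → F) (m : ℕ) :
    An x (dl F m) = ((quadT m).map fun e => (e.2.2 : F) * (x e.1 * x e.2.1)).sum := by
  simp only [An, quadT]
  generalize triL = L
  induction L with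
  | nil => simp [quadL, lflat]
  | cons τ L ih =>
    rw [quadL_cons]
    simp only [List.map_cons, List.sum_cons, ih, List.map_append, List.sum_append, brec_list]
    by_cases h1 : τ.1 = m <;> by_cases h2 : τ.2.1 = m <;> by_cases h3 : τ.2.2.1 = m <;>
      simp [dl, h1, h2, h3] <;> ring

lemma Tau_dl (x y : ℕ → F) (i : ℕ) :
    Tau x (dl F i) y = ((quadT i).map fun e => (e.2.2 : F) * (x e.1 * y e.2.1 + y e.1 * x e.2.1)).sum := by
  simp only [Tau, quadT]
  generalize triL = L
  induction L with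
  | nil => simp [quadL, lflat]
  | cons τ L ih =>
    rw [quadL_cons]
    simp only [List.map_cons, List.sum_cons, ih, List.map_append, List.sum_append, brec_list]
    by_cases h1 : τ.1 = i <;> by_cases h2 : τ.2.1 = i <;> by_cases h3 : τ.2.2.1 = i <;>
      simp [dl, h1, h2, h3] <;> ring

/-- The linear form of `Tau _ (dl i) (dl m)`. -/
def linL (i m : ℕ) : List (ℕ × ℤ) :=
  lflat (fun e : ℕ × ℕ × ℤ =>
    (Bool.rec [] [(e.1, e.2.2)] (Nat.beq e.2.1 m) : List (ℕ × ℤ)) ++
    (Bool.rec [] [(e.2.1, e.2.2)] (Nat.beq e.1 m) : List (ℕ × ℤ))) (quadT i)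

lemma Tau_dl_dl (x : ℕ → F) (i m : ℕ) : Tau x (dl F i) (dl F m) = evL (linL i m) x := by
  rw [Tau_dl, linL]
  generalize quadT i = Q
  induction Q with
  | nil => simp [lflat, evL]
  | cons e Q ih =>
    have h : lflat (fun e : ℕ × ℕ × ℤ =>
        (Bool.rec [] [(e.1, e.2.2)] (Nat.beq e.2.1 m) : List (ℕ × ℤ)) ++
        (Bool.rec [] [(e.2.1, e.2.2)] (Nat.beq e.1 m) : List (ℕ × ℤ))) (e :: Q) =
        (Bool.rec [] [(e.1, e.2.2)] (Nat.beq e.2.1 m) : List (ℕ × ℤ)) ++
        (Bool.rec [] [(e.2.1, e.2.2)] (Nat.beq e.1 m) : List (ℕ × ℤ)) ++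
        lflat (fun e : ℕ × ℕ × ℤ =>
        (Bool.rec [] [(e.1, e.2.2)] (Nat.beq e.2.1 m) : List (ℕ × ℤ)) ++
        (Bool.rec [] [(e.2.1, e.2.2)] (Nat.beq e.1 m) : List (ℕ × ℤ))) Q := by
      simp only [lflat_eq, List.flatMap_cons]
    rw [h]
    simp only [List.map_cons, List.sum_cons, ih, brec_list, evL, List.map_append, List.sum_append]
    by_cases h1 : e.2.1 = m <;> by_cases h2 : e.1 = m <;> simp [dl, h1, h2] <;> ring

/-- The coefficient of a pair in a list of monomials. -/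
def pc (Q : List (ℕ × ℕ × ℤ)) (j l : ℕ) : ℤ :=
  lfoldr (fun e acc =>
    Bool.rec acc (e.2.2 + acc)
      (Bool.rec (Bool.rec false (Nat.beq e.2.1 j) (Nat.beq e.1 l)) true
        (Bool.rec false (Nat.beq e.2.1 l) (Nat.beq e.1 j)))) 0 Q

/-- The coordinates meeting. -/
def Mt (p q : ℕ) : Bool := Nat.blt (thirdT p q) 27
/-- The coordinates skew. -/
def Sk (p q : ℕ) : Bool := Nat.blt (rootT p q) 72

/-- The list of coordinates. -/
def L27 : List ℕ := E27.L

theorem mem_L27 {n : ℕ} (h : n < 27) : n ∈ L27 := by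
  have : n ∈ List.range 27 := List.mem_range.2 h
  exact this

theorem lt_of_mem_L27 {n : ℕ} (h : n ∈ L27) : n < 27 := by
  have : n ∈ List.range 27 := h
  exact List.mem_range.1 this

/-- A check of the skewness classification. -/
theorem class_all : L27.all (fun p => L27.all fun j => decide (p = j ∨ Sk p j = true ∨ Mt p j = true) &&
    decide (Sk p j = true → Mt j p = false ∧ p ≠ j) && decide (Mt p j = true → Sk p j = false ∧ p ≠ j)) = true := by
  decide +kernel

theorem quad_all : (List.range 27).all (fun i => (quadT i).all fun e => Mt e.1 i && Mt e.2.1 i) = true := by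
  decide +kernel

theorem lin_all : (List.range 27).all (fun i => (List.range 27).all fun m =>
    decide (linL i m = if Mt i m = true then [(thirdT i m, sgnT i m)] else [])) = true := by
  decide +kernel

theorem third_all : (List.range 27).all (fun i => (List.range 27).all fun l =>
    !(Mt i l) || (Mt i (thirdT i l) && decide (thirdT i (thirdT i l) = l) && decide (thirdT i l < 27) &&
      decide (sgnT i (thirdT i l) = 1 ∨ sgnT i (thirdT i l) = -1))) = true := by
  decide +kernel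

/-- The pair facts for the singular lemma. -/
def singChk (j l : ℕ) : Bool :=
  let Q := quadT (thirdT l j)
  decide (thirdT l j < 27) &&
  Q.all (fun e => decide ((e.1 = j ∧ e.2.1 = l) ∨ (e.1 = l ∧ e.2.1 = j)) || Sk e.1 j || Sk e.2.1 j) &&
  decide (pc Q j l = 1 ∨ pc Q j l = -1)

theorem sing_all : (List.range 27).all (fun j => (List.range 27).all fun l => !(Mt l j) || singChk j l) = true := by
  decide +kernel

theorem tri_all : triL.all (fun τ => decide (τ.1 ≠ τ.2.1) && decide (τ.2.1 ≠ τ.2.2.1) && decide (τ.1 ≠ τ.2.2.1)) = true := by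
  decide +kernel

/-- The move facts. -/
noncomputable def mvChk (p q : ℕ) : Bool :=
  !(Sk p q) || (decide (yL (bl (rootT p q)) p = [(q, epsT p q)]) && decide (epsT p q = 1 ∨ epsT p q = -1) &&
    L27.all fun n => decide (n = p) || !(decide (n = q) || Sk n q) || decide (yL (bl (rootT p q)) n = []))

theorem mv_all : (List.range 27).all (fun p => (List.range 27).all fun q => mvChk p q) = true := by
  decide +kernel

lemma rootT_lt {p j : ℕ} (h : Sk p j = true) : p < 27 ∧ rootT p j < 72 := by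
  have h1 : rootT p j < 72 := by simpa [Sk] using h
  refine ⟨?_, h1⟩
  by_contra hp
  have : rootL.getD p [] = [] := by
    apply List.getD_eq_default
    have : rootL.length = 27 := by decide +kernel
    omega
  unfold rootT at h1
  rw [this] at h1
  simp at h1

lemma thirdT_lt {p j : ℕ} (h : Mt p j = true) : p < 27 ∧ thirdT p j < 27 := by
  have h1 : thirdT p j < 27 := by simpa [Mt] using h
  refine ⟨?_, h1⟩
  by_contra hp
  have : thirdL.getD p [] = [] := by
    apply List.getD_eq_default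
    have : thirdL.length = 27 := by decide +kernel
    omega
  unfold thirdT at h1
  rw [this] at h1
  simp at h1

lemma class_at {p j : ℕ} (hp : p < 27) (hj : j < 27) :
    (p = j ∨ Sk p j = true ∨ Mt p j = true) ∧ (Sk p j = true → Mt j p = false ∧ p ≠ j) ∧
      (Mt p j = true → Sk p j = false ∧ p ≠ j) := by
  have h := class_all
  simp only [List.all_eq_true, Bool.and_eq_true, decide_eq_true_eq] at h
  obtain ⟨⟨h1, h2⟩, h3⟩ := h p (mem_L27 hp) j (mem_L27 hj)
  exact ⟨h1, h2, h3⟩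

/-! ### Action -/

/-- The action on vectors. -/
def ap (g : GL I27 F) (v : I27 → F) : I27 → F := (g : Matrix I27 I27 F) *ᵥ v

lemma ap_mul (g h : GL I27 F) (v : I27 → F) : ap (g * h) v = ap g (ap h v) := by
  simp only [ap, Units.val_mul, Matrix.mulVec_mulVec]

lemma ap_inv_ap (g : GL I27 F) (v : I27 → F) : ap g (ap g⁻¹ v) = v := by
  rw [← ap_mul, mul_inv_cancel]
  simp [ap]

lemma ap_ap_inv (g : GL I27 F) (v : I27 → F) : ap g⁻¹ (ap g v) = v := by
  rw [← ap_mul, inv_mul_cancel]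
  simp [ap]

lemma ap_add (g : GL I27 F) (v w : I27 → F) : ap g (v + w) = ap g v + ap g w := by
  simp [ap, Matrix.mulVec_add]

lemma ap_add_smul (g : GL I27 F) (v w : I27 → F) (t : F) : ap g (v + t • w) = ap g v + t • ap g w := by
  simp [ap, Matrix.mulVec_add, Matrix.mulVec_smul]

section Inv

variable {g : GL I27 F} (hg : g ∈ E6univ F)
include hg

lemma Tn_ap (v : I27 → F) : Tn (co (ap g v)) = Tn (co v) := by
  have h := hg v
  have e : ((Units.coeHom (Matrix I27 I27 F)) g) = (g : Matrix I27 I27 F) := rfl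
  rw [e, cubicT_eq, cubicT_eq] at h
  exact h

variable {a : F} (ha0 : a ≠ 0) (ha1 : a ≠ 1)
include ha0 ha1

lemma An_ap (v w : I27 → F) : An (co (ap g v)) (co (ap g w)) = An (co v) (co w) := by
  have key : ∀ t : F, t * An (co (ap g v)) (co (ap g w)) + t ^ 2 * An (co (ap g w)) (co (ap g v)) =
      t * An (co v) (co w) + t ^ 2 * An (co w) (co v) := by
    intro t
    have h1 := Tn_ap hg (v + t • w)
    rw [ap_add_smul, co_add_smul, co_add_smul, T_add, T_add, Tn_ap hg v, Tn_ap hg w] at h1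
    linear_combination h1
  have k1 := key 1
  have ka := key a
  have h3 : (a * (1 - a)) * (An (co (ap g w)) (co (ap g v)) - An (co w) (co v)) = 0 := by
    linear_combination a * k1 - ka
  have h4 : a * (1 - a) ≠ 0 := mul_ne_zero ha0 (sub_ne_zero.2 (Ne.symm ha1))
  have h5 : An (co (ap g w)) (co (ap g v)) = An (co w) (co v) := by
    rcases mul_eq_zero.1 h3 with h | h
    · exact absurd h h4
    · exact sub_eq_zero.1 h
  linear_combination k1 - h5

lemma Tau_ap (u v w : I27 → F) :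
    Tau (co (ap g u)) (co (ap g v)) (co (ap g w)) = Tau (co u) (co v) (co w) := by
  have h1 := An_ap hg ha0 ha1 (u + v) w
  rw [ap_add, co_add, co_add, An_add_left, An_add_left, An_ap hg ha0 ha1 u w, An_ap hg ha0 ha1 v w] at h1
  linear_combination h1

end Inv

/-! ### Basis vectors -/

/-- The basis vector of a coordinate. -/
noncomputable def ei (F : Type*) [Field F] (i : ℕ) : I27 → F := Pi.single (E27.dc i) 1

lemma dc_inj {n m : ℕ} (hn : n < 27) (hm : m < 27) (h : E27.dc n = E27.dc m) : n = m := by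
  rw [← cd_dc' hn, ← cd_dc' hm, h]

lemma co_ei {i : ℕ} (hi : i < 27) : co (ei F i) = dl F i := by
  classical
  funext n
  by_cases h : n < 27
  · simp only [co, if_pos h, ei, dl, Pi.single_apply]
    by_cases h2 : n = i
    · simp [h2]
    · have : E27.dc n ≠ E27.dc i := fun h3 => h2 (dc_inj h hi h3)
      simp [h2, this]
  · have : n ≠ i := by omega
    simp [co, h, dl, this]

lemma An_dl_left (j : ℕ) (y : ℕ → F) : An (dl F j) y = 0 := by
  have h := tri_all
  simp only [An]
  simp only [List.all_eq_true, Bool.and_eq_true, decide_eq_true_eq] at h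
  apply List.sum_eq_zero
  intro z hz
  obtain ⟨τ, hτ, rfl⟩ := List.mem_map.1 hz
  obtain ⟨⟨h1, h2⟩, h3⟩ := h τ hτ
  have e1 : (dl F j τ.2.1) * (dl F j τ.2.2.1) = 0 := by
    by_cases h4 : τ.2.1 = j
    · have : τ.2.2.1 ≠ j := fun h5 => h2 (h4.trans h5.symm)
      simp [dl, this]
    · simp [dl, h4]
  have e2 : (dl F j τ.1) * (dl F j τ.2.2.1) = 0 := by
    by_cases h4 : τ.1 = j
    · have : τ.2.2.1 ≠ j := fun h5 => h3 (h4.trans h5.symm)
      simp [dl, this]
    · simp [dl, h4]
  have e3 : (dl F j τ.1) * (dl F j τ.2.1) = 0 := by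
    by_cases h4 : τ.1 = j
    · have : τ.2.1 ≠ j := fun h5 => h1 (h4.trans h5.symm)
      simp [dl, this]
    · simp [dl, h4]
  have : y τ.1 * dl F j τ.2.1 * dl F j τ.2.2.1 + dl F j τ.1 * y τ.2.1 * dl F j τ.2.2.1 +
      dl F j τ.1 * dl F j τ.2.1 * y τ.2.2.1 = y τ.1 * (dl F j τ.2.1 * dl F j τ.2.2.1) +
      y τ.2.1 * (dl F j τ.1 * dl F j τ.2.2.1) + y τ.2.2.1 * (dl F j τ.1 * dl F j τ.2.1) := by ring
  rw [this, e1, e2, e3]
  simp

/-- A vector vanishing on the coordinates meeting `i` is orthogonal. -/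
lemma Tau_eq_zero {x : ℕ → F} {i : ℕ} (hi : i < 27) (hx : ∀ p, Mt p i = true → x p = 0) (y : ℕ → F) :
    Tau x (dl F i) y = 0 := by
  have h := quad_all
  simp only [List.all_eq_true, List.mem_range, Bool.and_eq_true] at h
  rw [Tau_dl]
  apply List.sum_eq_zero
  intro z hz
  obtain ⟨e, he, rfl⟩ := List.mem_map.1 hz
  obtain ⟨h1, h2⟩ := h i hi e he
  rw [hx _ h1, hx _ h2]
  simp

lemma Tau_dl_third (x : ℕ → F) {i l : ℕ} (hi : i < 27) (hl : l < 27) (h : Mt i l = true) :
    Tau x (dl F i) (dl F (thirdT i l)) = ((sgnT i (thirdT i l) : ℤ) : F) * x l := by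
  have h1 := third_all
  simp only [List.all_eq_true, List.mem_range] at h1
  have h2 := h1 i hi l hl
  rw [h] at h2
  simp only [Bool.not_true, Bool.false_or, Bool.and_eq_true, decide_eq_true_eq] at h2
  obtain ⟨⟨⟨h3, h4⟩, h5⟩, h6⟩ := h2
  have h7 := lin_all
  simp only [List.all_eq_true, List.mem_range, decide_eq_true_eq] at h7
  rw [Tau_dl_dl, h7 i hi _ h5, if_pos h3, h4]
  simp [evL]

lemma sgn_ne {i l : ℕ} (hi : i < 27) (hl : l < 27) (h : Mt i l = true) : ((sgnT i (thirdT i l) : ℤ) : F) ≠ 0 := by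
  have h1 := third_all
  simp only [List.all_eq_true, List.mem_range] at h1
  have h2 := h1 i hi l hl
  rw [h] at h2
  simp only [Bool.not_true, Bool.false_or, Bool.and_eq_true, decide_eq_true_eq] at h2
  rcases h2.2 with h3 | h3 <;> rw [h3] <;> simp

end Cfsg.Agent.Lib.E6Cubic.Gen
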