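import Cfsg.Agent.Lib.E6Cubic.Poly

/-!
# Coordinates on `M₃(F)³` and the root elements
-/

set_option autoImplicit false
set_option linter.unusedSectionVars false
set_option linter.unusedVariables false
set_option maxRecDepth 100000

namespace Cfsg.Agent.Lib.E6Cubic.Gp

open Cfsg.Lie Matrix Cfsg.Agent.Lib.Chevalley.Reflect Cfsg.Agent.Lib.ChevIso.Act Cfsg.Agent.Lib.E6Cubic.Tbl
open Cfsg.Agent.Lib.E6Cubic.Fast Cfsg.Agent.Lib.E6Cubic.Poly

variable {F : Type*} [Field F]

/-- The coordinates of a vector, by their codes. -/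
def co (v : I27 → F) : ℕ → F := fun n => if n < 27 then v (E27.dc n) else 0

theorem cd_lt : ∀ a : I27, E27.cd a < 27 := by decide

theorem cd_dc : ∀ n : Fin 27, E27.cd (E27.dc n) = n := by decide

lemma cd_dc' {n : ℕ} (h : n < 27) : E27.cd (E27.dc n) = n := cd_dc ⟨n, h⟩

lemma co_cd (v : I27 → F) (a : I27) : co v (E27.cd a) = v a := by
  simp only [co, if_pos (cd_lt a), E27.dc_cd]

lemma co_inj {v w : I27 → F} (h : co v = co w) : v = w := by
  funext a
  rw [← co_cd v a, ← co_cd w a, h]

lemma co_add (v w : I27 → F) : co (v + w) = fun n => co v n + co w n := by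
  funext n
  by_cases h : n < 27 <;> simp [co, h]

lemma co_add_smul (v w : I27 → F) (t : F) : co (v + t • w) = fun n => co v n + t * co w n := by
  funext n
  by_cases h : n < 27 <;> simp [co, h]

/-- The cubic form in coordinates. -/
theorem cubicT_eq (v : I27 → F) : cubicT v = Tn (co v) := by
  have h0 : co v 0 = v (0, 0, 0) := rfl
  have h1 : co v 1 = v (0, 0, 1) := rfl
  have h2 : co v 2 = v (0, 0, 2) := rfl
  have h3 : co v 3 = v (0, 1, 0) := rfl
  have h4 : co v 4 = v (0, 1, 1) := rfl
  have h5 : co v 5 = v (0, 1, 2) := rfl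
  have h6 : co v 6 = v (0, 2, 0) := rfl
  have h7 : co v 7 = v (0, 2, 1) := rfl
  have h8 : co v 8 = v (0, 2, 2) := rfl
  have h9 : co v 9 = v (1, 0, 0) := rfl
  have h10 : co v 10 = v (1, 0, 1) := rfl
  have h11 : co v 11 = v (1, 0, 2) := rfl
  have h12 : co v 12 = v (1, 1, 0) := rfl
  have h13 : co v 13 = v (1, 1, 1) := rfl
  have h14 : co v 14 = v (1, 1, 2) := rfl
  have h15 : co v 15 = v (1, 2, 0) := rfl
  have h16 : co v 16 = v (1, 2, 1) := rfl
  have h17 : co v 17 = v (1, 2, 2) := rfl
  have h18 : co v 18 = v (2, 0, 0) := rfl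
  have h19 : co v 19 = v (2, 0, 1) := rfl
  have h20 : co v 20 = v (2, 0, 2) := rfl
  have h21 : co v 21 = v (2, 1, 0) := rfl
  have h22 : co v 22 = v (2, 1, 1) := rfl
  have h23 : co v 23 = v (2, 1, 2) := rfl
  have h24 : co v 24 = v (2, 2, 0) := rfl
  have h25 : co v 25 = v (2, 2, 1) := rfl
  have h26 : co v 26 = v (2, 2, 2) := rfl
  simp only [Tn, triL, List.map_cons, List.map_nil, List.sum_cons, List.sum_nil, h0, h1, h2, h3, h4, h5, h6, h7, h8, h9, h10, h11, h12, h13, h14, h15, h16, h17, h18, h19, h20, h21, h22, h23, h24, h25, h26]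
  simp only [cubicT, mat3, Matrix.det_fin_three, Matrix.trace, Matrix.diag, Fin.sum_univ_three, Matrix.mul_apply,
    Matrix.of_apply]
  push_cast
  ring

/-- The matrix of a root vector. -/
noncomputable def B (F : Type*) [Field F] (r : ℕ) : Matrix I27 I27 F := matF E27 F (evZ (bl r))

theorem bl_range : (List.range 72).all (fun r => (bl r).all fun p => decide (p.1 < 27) && decide (p.2.1 < 27)) = true := by
  decide +kernel

lemma bl_lt {r : ℕ} (hr : r < 72) {p : ℕ × ℕ × ℤ} (hp : p ∈ bl r) : p.1 < 27 ∧ p.2.1 < 27 := by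
  have h := bl_range
  simp only [List.all_eq_true, List.mem_range, Bool.and_eq_true, decide_eq_true_eq] at h
  exact h r hr p hp

lemma mulVec_evZ (A : SpM) (hA : ∀ p ∈ A, p.2.1 < 27) (v : I27 → F) (a : I27) :
    (matF E27 F (evZ A) *ᵥ v) a = evS A (co v) (E27.cd a) := by
  classical
  induction A with
  | nil =>
    simp [Matrix.mulVec, dotProduct, matF_apply, evZ, evS]
  | cons p A ih =>
    have ih' := ih (fun x hx => hA x (List.mem_cons_of_mem _ hx))
    have hp := hA p List.mem_cons_self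
    have e1 : ∀ i j, evZ (p :: A) i j = (if p.1 = i ∧ p.2.1 = j then p.2.2 else 0) + evZ A i j := evZ_cons p A
    have e2 : evS (p :: A) (co v) (E27.cd a) = (if p.1 = E27.cd a then (p.2.2 : F) * co v p.2.1 else 0) + evS A (co v) (E27.cd a) := by
      simp [evS]
    rw [e2, ← ih']
    simp only [Matrix.mulVec, dotProduct, matF_apply, e1, Int.cast_add, add_mul, Finset.sum_add_distrib]
    congr 1
    rw [Finset.sum_eq_single (E27.dc p.2.1)]
    · rw [cd_dc' hp]
      by_cases h : p.1 = E27.cd a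
      · simp [h, co, hp]
      · simp [h]
    · intro b _ hb
      have : p.2.1 ≠ E27.cd b := fun h => hb (by rw [h, E27.dc_cd])
      simp [this]
    · simp

lemma mulVec_B {r : ℕ} (hr : r < 72) (v : I27 → F) (a : I27) :
    (B F r *ᵥ v) a = evS (bl r) (co v) (E27.cd a) :=
  mulVec_evZ _ (fun p hp => (bl_lt hr hp).2) v a

lemma evS_out {r : ℕ} (hr : r < 72) (x : ℕ → F) {n : ℕ} (hn : ¬ n < 27) : evS (bl r) x n = 0 := by
  simp only [evS]
  apply List.sum_eq_zero
  intro y hy
  obtain ⟨p, hp, rfl⟩ := List.mem_map.1 hy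
  have := (bl_lt hr hp).1
  have h2 : p.1 ≠ n := by omega
  simp [h2]

theorem sq_all : (List.range 72).all (fun r => spEq (spMul (bl r) (bl r)) []) = true := by
  decide +kernel

lemma B_sq {r : ℕ} (hr : r < 72) : B F r * B F r = 0 := by
  have h := sq_all
  simp only [List.all_eq_true, List.mem_range] at h
  have h1 := spEq_sound (h r hr)
  have hrow : ∀ p ∈ bl r, E27.cd (E27.dc p.2.1) = p.2.1 := fun p hp => cd_dc' (bl_lt hr hp).2
  simp only [B]
  rw [mul_left E27 _ hrow]
  ext a b
  simp only [matF_apply, Matrix.zero_apply]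
  rw [Lz_eq, h1]
  simp [evZ_nil]

lemma mul_aux {M : Matrix I27 I27 F} (hM : M * M = 0) (a b : F) : (1 + a • M) * (1 + b • M) = 1 + (a + b) • M := by
  rw [add_mul, mul_add, mul_add, one_mul, mul_one, one_mul, Matrix.smul_mul, Matrix.mul_smul, hM, smul_zero, smul_zero,
    add_zero, add_smul, add_assoc, add_comm (b • M)]

/-- The root element. -/
noncomputable def Y (F : Type*) [Field F] (s : Fin 72) (t : F) : GL I27 F where
  val := 1 + t • B F s
  inv := 1 + (-t) • B F s
  val_inv := by
    rw [mul_aux (B_sq s.2), add_neg_cancel, zero_smul, add_zero]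
  inv_val := by
    rw [mul_aux (B_sq s.2), neg_add_cancel, zero_smul, add_zero]

lemma Y_coe (s : Fin 72) (t : F) : ((Y F s t : GL I27 F) : Matrix I27 I27 F) = 1 + t • B F s := rfl

/-- The coordinates of the image under a root element. -/
lemma co_Y (s : Fin 72) (t : F) (v : I27 → F) :
    co (((Y F s t : GL I27 F) : Matrix I27 I27 F) *ᵥ v) = fun n => co v n + t * evS (bl s) (co v) n := by
  funext n
  by_cases h : n < 27
  · simp only [co, if_pos h, Y_coe, Matrix.add_mulVec, Matrix.one_mulVec, Matrix.smul_mulVec, Pi.add_apply, Pi.smul_apply,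
      smul_eq_mul]
    rw [mulVec_B s.2, cd_dc' h]
  · simp only [co, if_neg h]
    rw [evS_out s.2 _ h]
    simp

theorem chkT_all : (List.range 72).all (fun r => chkT r) = true := by
  decide +kernel

/-- Root elements are isometries. -/
theorem Y_mem (s : Fin 72) (t : F) : Y F s t ∈ E6univ F := by
  intro v
  have h : ((Units.coeHom (Matrix I27 I27 F)) (Y F s t)) = ((Y F s t : GL I27 F) : Matrix I27 I27 F) := rfl
  rw [h, cubicT_eq, cubicT_eq, co_Y]
  have h2 := chkT_all
  simp only [List.all_eq_true, List.mem_range] at h2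
  exact T_of_chk (h2 s s.2) _ _

end Cfsg.Agent.Lib.E6Cubic.Gp
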