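import Cfsg.Agent.Lib.E6Cubic.Chk

/-!
# `E₆(F) ≅` isometries of the cubic form modulo the centre
-/

set_option autoImplicit false
set_option linter.unusedSectionVars false
set_option linter.unusedVariables false
set_option maxRecDepth 100000

namespace Cfsg.Agent.Lib.E6Cubic.Main

open Cfsg.Lie Matrix Cfsg.Agent.Lib.Chevalley.Reflect Cfsg.Agent.Lib.ChevIso.Act Cfsg.Agent.Lib.E6Cubic.Tbl
open Cfsg.Agent.Lib.E6Cubic.Fast Cfsg.Agent.Lib.E6Cubic.Poly Cfsg.Agent.Lib.E6Cubic.Gp
open Cfsg.Agent.Lib.E6Cubic.Gen Cfsg.Agent.Lib.E6Cubic.Chain Cfsg.Agent.Lib.E6Cubic.Stage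
open Cfsg.Agent.Lib.E6Cubic.Chk

variable {F : Type*} [Field F]

/-- The matrix of a basis vector. -/
noncomputable def P (k : ℕ) : Matrix I27 I27 F := matF E27 F (Pz k)

lemma P_root (s : ℕ) : (P (6 + s) : Matrix I27 I27 F) = B F s := by
  have h : ¬ (6 + s < 6) := by omega
  have e : pl (6 + s) = bl s := by
    simp [pl]
  ext a b
  simp only [P, B, matF_apply, Pz, e]

lemma all2 {f : ℕ → ℕ → Bool} {n m : ℕ} (h : (List.range n).all (fun r => (List.range m).all fun k => f r k) = true)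
    {r k : ℕ} (hr : r < n) (hk : k < m) : f r k = true := by
  simp only [List.all_eq_true, List.mem_range] at h
  exact h r hr k hk

lemma code_lt78 (a : chevE6.Idx) : code chevE6 a < 78 := code_lt chevE6 a

lemma cl_eq {r k : ℕ} (hr : r < 72) (hk : k < 78) : xCol chevE6 r k = cl r k :=
  (Cfsg.Agent.Lib.Chevalley.Tbl.E6.colOK.eq r hr k hk).symm

/-- The relation for the generators. -/
theorem rel_root (s : Fin 72) (t : F) :
    Cfsg.Agent.Lib.ChevIso.Act.Rel (D := chevE6) P (chevE6.xMat F s t) ((Y F s t : GL I27 F) : Matrix I27 I27 F) := by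
  intro a
  have ha := code_lt78 a
  have hs : (s : ℕ) < 72 := s.2
  have hc := cl_eq hs ha
  have hrows : ∀ e ∈ xCol chevE6 s (code chevE6 a), e.row < chevE6.rank + chevE6.nroots := by
    rw [hc]
    exact Cfsg.Agent.Lib.Chevalley.Tbl.E6.colOK.lt _ hs _ ha
  rw [act_xMat _ s t a hrows, Y_coe, hc]
  obtain ⟨hdeg, c1, c2, c3⟩ := fchk_sound (all2 chk_all hs ha)
  have hb1 : ∀ p ∈ bl s, E27.cd (E27.dc p.1) = p.1 := fun p hp => cd_dc' (bl_lt hs hp).1
  have hb2 : ∀ p ∈ bl s, E27.cd (E27.dc p.2.1) = p.2.1 := fun p hp => cd_dc' (bl_lt hs hp).2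
  exact rel_col E27 Pz (bl s) (code chevE6 a) (cl s (code chevE6 a)) t hb1 hb2 hdeg
    (fun i _ j _ => c1 i j) (fun i _ j _ => c2 i j) (fun i _ j _ => c3 i j)

/-- Root elements are invertible. -/
theorem xMat_mul_neg (s : Fin 72) (t : F) : chevE6.xMat F s t * chevE6.xMat F s (-t) = 1 := by
  have hA := (Cfsg.Agent.Lib.Chevalley.Tbl.E6.sys (F := F)).toAddRel
  have h := hA.add s s.2 t (-t)
  rw [add_neg_cancel, hA.zero s s.2, x_eq_xMat chevE6 s.2, x_eq_xMat chevE6 s.2] at h
  exact h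

/-- The root element in the adjoint group. -/
noncomputable def X (s : Fin 72) (t : F) : GL chevE6.Idx F :=
  ⟨chevE6.xMat F s t, chevE6.xMat F s (-t), xMat_mul_neg s t, by simpa using xMat_mul_neg s (-t)⟩

lemma X_coe (s : Fin 72) (t : F) : ((X s t : GL chevE6.Idx F) : Matrix chevE6.Idx chevE6.Idx F) = chevE6.xMat F s t := rfl

lemma X_mem (s : Fin 72) (t : F) : X s t ∈ chevE6.group F :=
  Subgroup.subset_closure ⟨s, t, rfl⟩

/-! ### Independence of the matrices -/

/-- The functional of a list. -/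
noncomputable def phiL (L : SpM) (M : Matrix I27 I27 F) : F :=
  (L.map fun e => (e.2.2 : F) * M (E27.dc e.1) (E27.dc e.2.1)).sum

lemma phiL_sum {ι : Type*} (L : SpM) (s : Finset ι) (w : ι → F) (M : ι → Matrix I27 I27 F) :
    phiL L (∑ c ∈ s, w c • M c) = ∑ c ∈ s, w c * phiL L (M c) := by
  induction L with
  | nil => simp [phiL]
  | cons e L ih =>
    have h : ∀ N : Matrix I27 I27 F, phiL (e :: L) N = (e.2.2 : F) * N (E27.dc e.1) (E27.dc e.2.1) + phiL L N := by
      intro N
      simp [phiL]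
    simp only [h, ih, Matrix.sum_apply, Matrix.smul_apply, smul_eq_mul, mul_add, Finset.mul_sum, Finset.sum_add_distrib]
    congr 1
    apply Finset.sum_congr rfl
    intro c _
    ring

lemma phi_P {b k : ℕ} (hb : b < 78) (hk : k < 78) :
    phiL (dualL b) (P k : Matrix I27 I27 F) = if k = b then 1 else 0 := by
  have h := dual_all
  simp only [List.all_eq_true, List.mem_range, Bool.and_eq_true, decide_eq_true_eq] at h
  obtain ⟨h1, h2⟩ := h b hb
  have h3 := h2 k hk
  have e : phiL (dualL b) (P k : Matrix I27 I27 F) =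
      ((((dualL b).map fun e => e.2.2 * Pz k e.1 e.2.1).sum : ℤ) : F) := by
    have key : ∀ L : SpM, (∀ e ∈ L, e.1 < 27 ∧ e.2.1 < 27) → phiL L (P k : Matrix I27 I27 F) =
        (((L.map fun e => e.2.2 * Pz k e.1 e.2.1).sum : ℤ) : F) := by
      intro L hL
      induction L with
      | nil => simp [phiL]
      | cons e L ih =>
        have ih' := ih (fun x hx => hL x (List.mem_cons_of_mem _ hx))
        obtain ⟨h4, h5⟩ := hL e List.mem_cons_self
        simp only [phiL, List.map_cons, List.sum_cons] at ih' ⊢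
        rw [ih', P, matF_apply, cd_dc' h4, cd_dc' h5]
        push_cast
        ring
    exact key _ h1
  rw [e, h3]
  split_ifs <;> simp

/-- An element acting trivially on the matrices of the basis vectors is trivial. -/
theorem eq_one_of_act {x : Matrix chevE6.Idx chevE6.Idx F} (h : ∀ a, act P x a = P (code chevE6 a)) : x = 1 := by
  classical
  ext c a
  have h1 := congrArg (phiL (dualL (code chevE6 c))) (h a)
  rw [act, phiL_sum, phi_P (code_lt78 c) (code_lt78 a)] at h1
  rw [Finset.sum_eq_single c] at h1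
  · rw [phi_P (code_lt78 c) (code_lt78 c), if_pos rfl, mul_one] at h1
    rw [h1, Matrix.one_apply]
    by_cases hca : c = a
    · simp [hca]
    · have : code chevE6 a ≠ code chevE6 c := fun h2 => hca (code_inj chevE6 h2).symm
      simp [hca, this]
  · intro d _ hd
    rw [phi_P (code_lt78 c) (code_lt78 d), if_neg (fun h2 => hd (code_inj chevE6 h2)), mul_zero]
  · simp

/-! ### Commutation -/

lemma P_cartan {i : ℕ} (hi : i < 6) : ∃ r s : ℕ, r < 72 ∧ s < 72 ∧
    (P i : Matrix I27 I27 F) = B F r * B F s - B F s * B F r := by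
  have h := perf_all
  simp only [List.all_eq_true, List.mem_range, Bool.and_eq_true, decide_eq_true_eq] at h
  obtain ⟨⟨h1, h2⟩, h3⟩ := h i hi
  refine ⟨_, _, h1, h2, ?_⟩
  have hb1 : ∀ {r : ℕ}, r < 72 → ∀ p ∈ bl r, E27.cd (E27.dc p.1) = p.1 := fun hs p hp => cd_dc' (bl_lt hs hp).1
  have hb2 : ∀ {r : ℕ}, r < 72 → ∀ p ∈ bl r, E27.cd (E27.dc p.2.1) = p.2.1 := fun hs p hp => cd_dc' (bl_lt hs hp).2
  simp only [B, P]
  rw [mul_left E27 _ (hb2 h1), mul_left E27 _ (hb2 h2)]
  ext a b'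
  simp only [Matrix.sub_apply, matF_apply]
  rw [← Int.cast_sub]
  congr 1
  rw [Lz_eq, Lz_eq]
  have h4 := spEq_sound h3 (E27.cd a) (E27.cd b')
  rw [lapp_eq, evZ_append, evZ_spScale] at h4
  have e : Pz i (E27.cd a) (E27.cd b') = evZ (pl i) (E27.cd a) (E27.cd b') := rfl
  rw [e, h4]
  ring

lemma commute_all {y : Matrix I27 I27 F} (hy : ∀ s : Fin 72, Commute y (B F s)) :
    ∀ k, k < 78 → Commute y (P k) := by
  intro k hk
  by_cases h6 : k < 6
  · obtain ⟨r, s, hr, hs, h⟩ := P_cartan (F := F) h6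
    rw [h]
    exact Commute.sub_right ((hy ⟨r, hr⟩).mul_right (hy ⟨s, hs⟩)) ((hy ⟨s, hs⟩).mul_right (hy ⟨r, hr⟩))
  · have e : k = 6 + (k - 6) := by omega
    rw [e, P_root]
    exact hy ⟨k - 6, by omega⟩

lemma commute_Y {y : GL I27 F} (hy : ∀ s : Fin 72, Commute (y : Matrix I27 I27 F) (B F s)) (s : Fin 72) (t : F) :
    Commute y (Y F s t) := by
  apply Units.ext
  show (y : Matrix I27 I27 F) * (Y F s t : GL I27 F) = (Y F s t : GL I27 F) * y
  rw [Y_coe, mul_add, add_mul, mul_one, one_mul, Matrix.mul_smul, Matrix.smul_mul, (hy s).eq]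

lemma commute_of_G0 {y : GL I27 F} (hy : ∀ s : Fin 72, Commute (y : Matrix I27 I27 F) (B F s)) {g : GL I27 F} (hg : g ∈ G0 F) :
    Commute y g := by
  induction hg using Subgroup.closure_induction with
  | mem g hg =>
    obtain ⟨s, t, rfl⟩ := hg
    exact commute_Y hy s t
  | one => exact Commute.one_right _
  | mul a b _ _ ha hb => exact ha.mul_right hb
  | inv a _ ha => exact ha.inv_right

/-! ### The graph -/

/-- The element of the isometry group. -/
noncomputable def YY (s : Fin 72) (t : F) : ↥(E6univ F) := ⟨Y F s t, Y_mem s t⟩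

/-- The graph. -/
noncomputable def Gam (F : Type*) [Field F] : Subgroup (GL chevE6.Idx F × ↥(E6univ F)) :=
  Subgroup.closure {p | ∃ (s : Fin 72) (t : F), p.1 = X s t ∧ p.2 = YY s t}

lemma gam_inv {p : GL chevE6.Idx F × ↥(E6univ F)} (hp : p ∈ Gam F) :
    Cfsg.Agent.Lib.ChevIso.Act.Rel (D := chevE6) P (p.1 : Matrix chevE6.Idx chevE6.Idx F)
      ((p.2 : GL I27 F) : Matrix I27 I27 F) := by
  induction hp using Subgroup.closure_induction with
  | mem p hp =>
    obtain ⟨s, t, h1, h2⟩ := hp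
    rw [h1, h2, X_coe]
    exact rel_root s t
  | one =>
    exact Cfsg.Agent.Lib.ChevIso.Act.Rel.one _
  | mul p q _ _ hp hq =>
    simp only [Prod.fst_mul, Prod.snd_mul, Subgroup.coe_mul, Units.val_mul]
    exact hp.mul hq
  | inv p _ hp =>
    simp only [Prod.fst_inv, Prod.snd_inv, Subgroup.coe_inv]
    refine hp.inv ?_ ?_ ?_
    · rw [← Units.val_mul, mul_inv_cancel, Units.val_one]
    · rw [← Units.val_mul, inv_mul_cancel, Units.val_one]
    · rw [← Units.val_mul, mul_inv_cancel, Units.val_one]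

lemma gam_fst {p : GL chevE6.Idx F × ↥(E6univ F)} (hp : p ∈ Gam F) : p.1 ∈ chevE6.group F := by
  induction hp using Subgroup.closure_induction with
  | mem p hp =>
    obtain ⟨s, t, h1, h2⟩ := hp
    rw [h1]
    exact X_mem s t
  | one => exact Subgroup.one_mem _
  | mul p q _ _ hp hq => exact Subgroup.mul_mem _ hp hq
  | inv p _ hp => exact Subgroup.inv_mem _ hp

/-- The map to the Chevalley group. -/
noncomputable def fG : ↥(Gam F) →* ↥(chevE6.group F) :=
  MonoidHom.codRestrict ((MonoidHom.fst _ _).comp (Subgroup.subtype (Gam F))) _ (fun p => gam_fst p.2)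

/-- The map to the isometry group. -/
noncomputable def gG : ↥(Gam F) →* ↥(E6univ F) :=
  (MonoidHom.snd _ _).comp (Subgroup.subtype (Gam F))

lemma fG_surj : Function.Surjective (fG (F := F)) := by
  rintro ⟨g, hg⟩
  have : ∃ p ∈ Gam F, p.1 = g := by
    induction hg using Subgroup.closure_induction with
    | mem g hg =>
      obtain ⟨r, t, h⟩ := hg
      have e : g = X r t := Units.ext h
      exact ⟨(g, YY r t), Subgroup.subset_closure ⟨r, t, e, rfl⟩, rfl⟩
    | one => exact ⟨1, Subgroup.one_mem _, rfl⟩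
    | mul a b _ _ ha hb =>
      obtain ⟨p, hp, rfl⟩ := ha
      obtain ⟨q, hq, rfl⟩ := hb
      exact ⟨p * q, Subgroup.mul_mem _ hp hq, rfl⟩
    | inv a _ ha =>
      obtain ⟨p, hp, rfl⟩ := ha
      exact ⟨p⁻¹, Subgroup.inv_mem _ hp, rfl⟩
  obtain ⟨p, hp, rfl⟩ := this
  exact ⟨⟨p, hp⟩, rfl⟩

/-- Two surjections with the same kernel give an isomorphism. -/
theorem nonempty_mulEquiv_of_ker_eq' {Γ H₁ H₂ : Type*} [Group Γ] [Group H₁] [Group H₂] (f : Γ →* H₁) (g : Γ →* H₂)
    (hf : Function.Surjective f) (hg : Function.Surjective g) (h : f.ker = g.ker) : Nonempty (H₁ ≃* H₂) :=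
  ⟨(QuotientGroup.quotientKerEquivOfSurjective f hf).symm.trans
    ((QuotientGroup.quotientMulEquivOfEq h).trans (QuotientGroup.quotientKerEquivOfSurjective g hg))⟩

variable {a : F} (ha0 : a ≠ 0) (ha1 : a ≠ 1)
include ha0 ha1

lemma gG_surj : Function.Surjective (gG (F := F)) := by
  rintro ⟨g, hg⟩
  have hg0 : g ∈ G0 F := mem_G0 ha0 ha1 hg
  have : ∃ p ∈ Gam F, (p.2 : GL I27 F) = g := by
    induction hg0 using Subgroup.closure_induction with
    | mem g hg' =>
      obtain ⟨r, t, h⟩ := hg'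
      exact ⟨(X r t, YY r t), Subgroup.subset_closure ⟨r, t, rfl, rfl⟩, h.symm⟩
    | one => exact ⟨1, Subgroup.one_mem _, rfl⟩
    | mul a b ha' hb' ha hb =>
      obtain ⟨p, hp, rfl⟩ := ha (G0_le ha')
      obtain ⟨q, hq, rfl⟩ := hb (G0_le hb')
      exact ⟨p * q, Subgroup.mul_mem _ hp hq, rfl⟩
    | inv a ha' ha =>
      obtain ⟨p, hp, rfl⟩ := ha (G0_le ha')
      exact ⟨p⁻¹, Subgroup.inv_mem _ hp, rfl⟩
  obtain ⟨p, hp, h⟩ := this
  exact ⟨⟨p, hp⟩, Subtype.ext h⟩

/-- The kernels of the two projections correspond. -/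
lemma fst_eq_one_iff {p : GL chevE6.Idx F × ↥(E6univ F)} (hp : p ∈ Gam F) :
    p.1 = 1 ↔ p.2 ∈ Subgroup.center ↥(E6univ F) := by
  classical
  have h1 := gam_inv hp
  constructor
  · intro h
    rw [h] at h1
    have hc : ∀ a : chevE6.Idx, (P (code chevE6 a) : Matrix I27 I27 F) * ((p.2 : GL I27 F) : Matrix I27 I27 F) =
        ((p.2 : GL I27 F) : Matrix I27 I27 F) * P (code chevE6 a) := by
      intro a
      have := h1 a
      rwa [Units.val_one, act_one] at this
    have hB : ∀ s : Fin 72, Commute ((p.2 : GL I27 F) : Matrix I27 I27 F) (B F s) := by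
      intro s
      have := hc (.inr s)
      have e : code chevE6 (.inr s) = 6 + s := rfl
      rw [e, P_root] at this
      exact this.symm
    rw [Subgroup.mem_center_iff]
    rintro ⟨g, hg⟩
    apply Subtype.ext
    exact (commute_of_G0 hB (mem_G0 ha0 ha1 hg)).eq.symm
  · intro h
    rw [Subgroup.mem_center_iff] at h
    have hB : ∀ s : Fin 72, Commute ((p.2 : GL I27 F) : Matrix I27 I27 F) (B F s) := by
      intro s
      have h3 := h (YY s 1)
      have h5 := congrArg (fun g : ↥(E6univ F) => ((g : GL I27 F) : Matrix I27 I27 F)) h3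
      simp only [Subgroup.coe_mul, Units.val_mul, YY, Y_coe, one_smul, add_mul, mul_add, one_mul, mul_one] at h5
      exact (add_left_cancel h5).symm
    have hc := commute_all hB
    apply Units.ext
    apply eq_one_of_act
    intro a
    have h3 := h1 a
    rw [(hc _ (code_lt78 a)).eq] at h3
    exact (p.2 : GL I27 F).isUnit.mul_left_inj.1 h3

/-- The isomorphism. -/
theorem e6_equiv : Nonempty (↥(chevE6.group F) ≃* E6 F) := by
  refine nonempty_mulEquiv_of_ker_eq' fG ((QuotientGroup.mk' (Subgroup.center ↥(E6univ F))).comp gG) fG_surj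
    ((QuotientGroup.mk'_surjective _).comp (gG_surj ha0 ha1)) ?_
  ext ⟨p, hp⟩
  rw [MonoidHom.mem_ker, MonoidHom.mem_ker]
  have e1 : fG (⟨p, hp⟩ : ↥(Gam F)) = 1 ↔ p.1 = 1 := by
    rw [Subtype.ext_iff]
    rfl
  have e2 : ((QuotientGroup.mk' (Subgroup.center ↥(E6univ F))).comp gG) (⟨p, hp⟩ : ↥(Gam F)) = 1 ↔
      p.2 ∈ Subgroup.center ↥(E6univ F) := by
    rw [MonoidHom.comp_apply, QuotientGroup.mk'_apply, QuotientGroup.eq_one_iff]
    rfl
  rw [e1, e2]
  exact fst_eq_one_iff ha0 ha1 hp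

end Cfsg.Agent.Lib.E6Cubic.Main
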