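import Cfsg.Agent.Lib.E6Cubic.Fast

/-!
# The cubic form on coordinates; its polarisations; root elements preserve it
-/

set_option autoImplicit false
set_option linter.unusedSectionVars false
set_option linter.unusedVariables false

namespace Cfsg.Agent.Lib.E6Cubic.Poly

open Cfsg.Lie Matrix Cfsg.Agent.Lib.Chevalley.Reflect Cfsg.Agent.Lib.ChevIso.Act Cfsg.Agent.Lib.E6Cubic.Tbl
open Cfsg.Agent.Lib.E6Cubic.Fast

variable {F : Type*} [Field F]

/-- The cubic form on coordinates. -/
def Tn (x : ℕ → F) : F := (triL.map fun τ => (τ.2.2.2 : F) * (x τ.1 * x τ.2.1 * x τ.2.2.1)).sum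

/-- The linear term of the cubic form at `x` in direction `y`. -/
def An (x y : ℕ → F) : F :=
  (triL.map fun τ => (τ.2.2.2 : F) * (y τ.1 * x τ.2.1 * x τ.2.2.1 + x τ.1 * y τ.2.1 * x τ.2.2.1 + x τ.1 * x τ.2.1 * y τ.2.2.1)).sum

/-- The full polarisation. -/
def Tau (x y z : ℕ → F) : F :=
  (triL.map fun τ => (τ.2.2.2 : F) * (x τ.1 * y τ.2.1 * z τ.2.2.1 + x τ.1 * z τ.2.1 * y τ.2.2.1 +
    y τ.1 * x τ.2.1 * z τ.2.2.1 + z τ.1 * x τ.2.1 * y τ.2.2.1 +
    y τ.1 * z τ.2.1 * x τ.2.2.1 + z τ.1 * y τ.2.1 * x τ.2.2.1)).sum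

lemma T_add (x y : ℕ → F) (t : F) :
    Tn (fun n => x n + t * y n) = Tn x + t * An x y + t ^ 2 * An y x + t ^ 3 * Tn y := by
  simp only [Tn, An]
  generalize triL = L
  induction L with
  | nil => simp
  | cons τ L ih =>
    simp only [List.map_cons, List.sum_cons, ih]
    ring

lemma An_add_left (x x' z : ℕ → F) :
    An (fun n => x n + x' n) z = An x z + An x' z + Tau x x' z := by
  simp only [An, Tau]
  generalize triL = L
  induction L with
  | nil => simp
  | cons τ L ih =>
    simp only [List.map_cons, List.sum_cons, ih]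
    ring

/-! ### Reflection for cubic identities -/

/-- A linear form. -/
def evL (L : List (ℕ × ℤ)) (x : ℕ → F) : F := (L.map fun q => (q.2 : F) * x q.1).sum

/-- A monomial `(c, p, q, r)`. -/
abbrev Mn := ℤ × ℕ × ℕ × ℕ

/-- The value of a list of monomials. -/
def evM (L : List Mn) (x : ℕ → F) : F := (L.map fun m => (m.1 : F) * (x m.2.1 * x m.2.2.1 * x m.2.2.2)).sum

lemma evL_cons (q : ℕ × ℤ) (L : List (ℕ × ℤ)) (x : ℕ → F) : evL (q :: L) x = (q.2 : F) * x q.1 + evL L x := by
  simp [evL]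

lemma evM_cons (q : Mn) (L : List Mn) (x : ℕ → F) :
    evM (q :: L) x = (q.1 : F) * (x q.2.1 * x q.2.2.1 * x q.2.2.2) + evM L x := by
  simp [evM]

lemma evM_append (A B : List Mn) (x : ℕ → F) : evM (A ++ B) x = evM A x + evM B x := by
  simp [evM, List.map_append, List.sum_append]

/-- The product of three linear forms. -/
def prod3 (A B C : List (ℕ × ℤ)) : List Mn :=
  lflat (fun a => lflat (fun b => lmap (fun c => (Int.mul (Int.mul a.2 b.2) c.2, a.1, b.1, c.1)) C) B) A

lemma evM_prod3 (A B C : List (ℕ × ℤ)) (x : ℕ → F) : evM (prod3 A B C) x = evL A x * evL B x * evL C x := by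
  have mul1 : ∀ a b : ℤ, Int.mul a b = a * b := fun _ _ => rfl
  have h3 : ∀ (a b : ℕ × ℤ) (C : List (ℕ × ℤ)),
      evM (lmap (fun c => (Int.mul (Int.mul a.2 b.2) c.2, a.1, b.1, c.1)) C) x =
        (a.2 : F) * x a.1 * ((b.2 : F) * x b.1) * evL C x := by
    intro a b C
    induction C with
    | nil => simp [lmap, evM, evL]
    | cons c C ih =>
      have e : lmap (fun c => (Int.mul (Int.mul a.2 b.2) c.2, a.1, b.1, c.1)) (c :: C) =
          (Int.mul (Int.mul a.2 b.2) c.2, a.1, b.1, c.1) ::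
            lmap (fun c => (Int.mul (Int.mul a.2 b.2) c.2, a.1, b.1, c.1)) C := rfl
      rw [e, evM_cons, ih, evL_cons]
      simp only [mul1]
      push_cast
      ring
  have h2 : ∀ (a : ℕ × ℤ) (B : List (ℕ × ℤ)),
      evM (lflat (fun b => lmap (fun c => (Int.mul (Int.mul a.2 b.2) c.2, a.1, b.1, c.1)) C) B) x =
        (a.2 : F) * x a.1 * evL B x * evL C x := by
    intro a B
    induction B with
    | nil => simp [lflat, evM, evL]
    | cons b B ih =>
      have e : lflat (fun b => lmap (fun c => (Int.mul (Int.mul a.2 b.2) c.2, a.1, b.1, c.1)) C) (b :: B) =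
          lmap (fun c => (Int.mul (Int.mul a.2 b.2) c.2, a.1, b.1, c.1)) C ++
            lflat (fun b => lmap (fun c => (Int.mul (Int.mul a.2 b.2) c.2, a.1, b.1, c.1)) C) B := by
        simp only [lflat_eq, List.flatMap_cons]
      rw [e, evM_append, h3, ih, evL_cons]
      ring
  unfold prod3
  induction A with
  | nil => simp [lflat, evM, evL]
  | cons a A ih =>
    have e : lflat (fun a => lflat (fun b => lmap (fun c => (Int.mul (Int.mul a.2 b.2) c.2, a.1, b.1, c.1)) C) B) (a :: A) =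
        lflat (fun b => lmap (fun c => (Int.mul (Int.mul a.2 b.2) c.2, a.1, b.1, c.1)) C) B ++
          lflat (fun a => lflat (fun b => lmap (fun c => (Int.mul (Int.mul a.2 b.2) c.2, a.1, b.1, c.1)) C) B) A := by
      simp only [lflat_eq, List.flatMap_cons]
    rw [e, evM_append, h2, ih, evL_cons]
    ring

/-- A multiple. -/
def scM (s : ℤ) (L : List Mn) : List Mn := lmap (fun m => (Int.mul s m.1, m.2)) L

lemma evM_scM (s : ℤ) (L : List Mn) (x : ℕ → F) : evM (scM s L) x = (s : F) * evM L x := by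
  induction L with
  | nil => simp [scM, lmap, evM]
  | cons m L ih =>
    have e : scM s (m :: L) = (Int.mul s m.1, m.2) :: scM s L := rfl
    have e2 : Int.mul s m.1 = s * m.1 := rfl
    rw [e, evM_cons, ih, evM_cons, e2]
    push_cast
    ring

/-- The cubic expression with three families of linear forms. -/
def mon3 (f g h : ℕ → List (ℕ × ℤ)) : List Mn :=
  lflat (fun τ : ℕ × ℕ × ℕ × ℤ => scM τ.2.2.2 (prod3 (f τ.1) (g τ.2.1) (h τ.2.2.1))) triL

lemma evM_mon3 (f g h : ℕ → List (ℕ × ℤ)) (x : ℕ → F) :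
    evM (mon3 f g h) x = (triL.map fun τ => (τ.2.2.2 : F) * (evL (f τ.1) x * evL (g τ.2.1) x * evL (h τ.2.2.1) x)).sum := by
  unfold mon3
  generalize triL = L
  induction L with
  | nil => simp [lflat, evM]
  | cons τ L ih =>
    have e : lflat (fun τ : ℕ × ℕ × ℕ × ℤ => scM τ.2.2.2 (prod3 (f τ.1) (g τ.2.1) (h τ.2.2.1))) (τ :: L) =
        scM τ.2.2.2 (prod3 (f τ.1) (g τ.2.1) (h τ.2.2.1)) ++
          lflat (fun τ : ℕ × ℕ × ℕ × ℤ => scM τ.2.2.2 (prod3 (f τ.1) (g τ.2.1) (h τ.2.2.1))) L := by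
      simp only [lflat_eq, List.flatMap_cons]
    rw [e, evM_append, evM_scM, evM_prod3, ih]
    simp

/-- Sorting three indices. -/
def sort3 (p q r : ℕ) : ℕ × ℕ × ℕ :=
  Bool.rec
    (Bool.rec (Bool.rec (r, q, p) (q, r, p) (Nat.ble q r)) (q, p, r) (Nat.ble p r))
    (Bool.rec (Bool.rec (r, p, q) (p, r, q) (Nat.ble p r)) (p, q, r) (Nat.ble q r))
    (Nat.ble p q)

lemma mon_sort3 (x : ℕ → F) (p q r : ℕ) :
    x (sort3 p q r).1 * x (sort3 p q r).2.1 * x (sort3 p q r).2.2 = x p * x q * x r := by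
  unfold sort3
  cases Nat.ble p q <;> cases Nat.ble q r <;> cases Nat.ble p r <;> simp only <;> ring

/-- Equality of keys. -/
def keyEq (a b : ℕ × ℕ × ℕ) : Bool :=
  Bool.rec false (Bool.rec false (Nat.beq a.2.2 b.2.2) (Nat.beq a.2.1 b.2.1)) (Nat.beq a.1 b.1)

lemma keyEq_true {a b : ℕ × ℕ × ℕ} (h : keyEq a b = true) : a = b := by
  unfold keyEq at h
  cases h1 : Nat.beq a.1 b.1 with
  | false => rw [h1] at h; cases h
  | true =>
    rw [h1] at h
    cases h2 : Nat.beq a.2.1 b.2.1 with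
    | false => rw [h2] at h; cases h
    | true =>
      rw [h2] at h
      have h3 : Nat.beq a.2.2 b.2.2 = true := h
      exact Prod.ext (Nat.eq_of_beq_eq_true h1) (Prod.ext (Nat.eq_of_beq_eq_true h2) (Nat.eq_of_beq_eq_true h3))

/-- Inserting a monomial. -/
def ins (k : ℕ × ℕ × ℕ) (c : ℤ) (A : List ((ℕ × ℕ × ℕ) × ℤ)) : List ((ℕ × ℕ × ℕ) × ℤ) :=
  List.rec [(k, c)] (fun h t ih => Bool.rec (h :: ih) ((h.1, c + h.2) :: t) (keyEq k h.1)) A

/-- The value of a normal form. -/
def evN (A : List ((ℕ × ℕ × ℕ) × ℤ)) (x : ℕ → F) : F :=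
  (A.map fun e => (e.2 : F) * (x e.1.1 * x e.1.2.1 * x e.1.2.2)).sum

lemma evN_ins (k : ℕ × ℕ × ℕ) (c : ℤ) (A : List ((ℕ × ℕ × ℕ) × ℤ)) (x : ℕ → F) :
    evN (ins k c A) x = (c : F) * (x k.1 * x k.2.1 * x k.2.2) + evN A x := by
  induction A with
  | nil => simp [ins, evN]
  | cons h t ih =>
    have e : ins k c (h :: t) = Bool.rec (h :: ins k c t) ((h.1, c + h.2) :: t) (keyEq k h.1) := rfl
    rw [e]
    cases hk : keyEq k h.1 with
    | false =>
      simp only [evN, List.map_cons, List.sum_cons] at ih ⊢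
      rw [ih]
      ring
    | true =>
      have := keyEq_true hk
      subst this
      simp only [evN, List.map_cons, List.sum_cons]
      push_cast
      ring

/-- The normal form of a list of monomials. -/
def nrm (L : List Mn) : List ((ℕ × ℕ × ℕ) × ℤ) :=
  lfoldr (fun m A => ins (sort3 m.2.1 m.2.2.1 m.2.2.2) m.1 A) [] L

lemma evN_nrm (L : List Mn) (x : ℕ → F) : evN (nrm L) x = evM L x := by
  induction L with
  | nil => simp [nrm, lfoldr, evN, evM]
  | cons m L ih =>
    have e : nrm (m :: L) = ins (sort3 m.2.1 m.2.2.1 m.2.2.2) m.1 (nrm L) := rfl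
    rw [e, evN_ins, ih, evM_cons, mon_sort3]

/-- All coefficients of the normal form vanish. -/
def zeroM (L : List Mn) : Bool := lall (fun e => decide (e.2 = 0)) (nrm L)

lemma evM_eq_zero {L : List Mn} (h : zeroM L = true) (x : ℕ → F) : evM L x = 0 := by
  rw [← evN_nrm]
  simp only [zeroM, lall_eq, List.all_eq_true, decide_eq_true_eq] at h
  simp only [evN]
  apply List.sum_eq_zero
  intro y hy
  obtain ⟨e, he, rfl⟩ := List.mem_map.1 hy
  simp [h e he]

/-! ### The root matrices on coordinates -/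

/-- The coordinates of a root matrix applied to a vector. -/
def evS (bl : SpM) (x : ℕ → F) (n : ℕ) : F :=
  (bl.map fun p => if p.1 = n then (p.2.2 : F) * x p.2.1 else 0).sum

/-- The linear form of a coordinate of a root matrix. -/
def yL (bl : SpM) (n : ℕ) : List (ℕ × ℤ) :=
  lflat (fun p : ℕ × ℕ × ℤ => Bool.rec [] [(p.2.1, p.2.2)] (Nat.beq p.1 n)) bl

lemma evL_yL (bl : SpM) (x : ℕ → F) (n : ℕ) : evL (yL bl n) x = evS bl x n := by
  induction bl with
  | nil => simp [yL, lflat, evL, evS]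
  | cons p bl ih =>
    have e : yL (p :: bl) n = (Bool.rec [] [(p.2.1, p.2.2)] (Nat.beq p.1 n) : List (ℕ × ℤ)) ++ yL bl n := by
      simp only [yL, lflat_eq, List.flatMap_cons]
    have e2 : evS (p :: bl) x n = (if p.1 = n then (p.2.2 : F) * x p.2.1 else 0) + evS bl x n := by
      simp [evS]
    rw [e, e2, ← ih]
    by_cases h : p.1 = n
    · have h' : Nat.beq p.1 n = true := by simpa using h
      rw [h', if_pos h]
      simp [evL]
    · rw [beq_false h, if_neg h]
      simp [evL]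

/-- The linear form of a coordinate. -/
def xL (n : ℕ) : List (ℕ × ℤ) := [(n, 1)]

lemma evL_xL (n : ℕ) (x : ℕ → F) : evL (xL n) x = x n := by
  simp [xL, evL]

/-- The polynomial checks for a root. -/
noncomputable def chkT (r : ℕ) : Bool :=
  let Y := yL (bl r)
  zeroM (mon3 Y xL xL ++ mon3 xL Y xL ++ mon3 xL xL Y) &&
  zeroM (mon3 xL Y Y ++ mon3 Y xL Y ++ mon3 Y Y xL) &&
  zeroM (mon3 Y Y Y)

/-- The cubic form is preserved on coordinates. -/
theorem T_of_chk {r : ℕ} (h : chkT r = true) (x : ℕ → F) (t : F) :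
    Tn (fun n => x n + t * evS (bl r) x n) = Tn x := by
  simp only [chkT, Bool.and_eq_true] at h
  obtain ⟨⟨h1, h2⟩, h3⟩ := h
  have hy : ∀ n, evL (yL (bl r) n) x = evS (bl r) x n := evL_yL _ x
  have hx : ∀ n, evL (xL n) x = x n := fun n => evL_xL n x
  have e1 := evM_eq_zero h1 x
  have e2 := evM_eq_zero h2 x
  have e3 := evM_eq_zero h3 x
  rw [evM_append, evM_append] at e1 e2
  simp only [evM_mon3, hy, hx] at e1 e2 e3
  have a1 : An x (fun n => evS (bl r) x n) = 0 := by
    rw [← e1]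
    simp only [An]
    generalize triL = L
    induction L with
    | nil => simp
    | cons τ L ih =>
      simp only [List.map_cons, List.sum_cons, ih]
      ring
  have a2 : An (fun n => evS (bl r) x n) x = 0 := by
    rw [← e2]
    simp only [An]
    generalize triL = L
    induction L with
    | nil => simp
    | cons τ L ih =>
      simp only [List.map_cons, List.sum_cons, ih]
      ring
  have a3 : Tn (fun n => evS (bl r) x n) = 0 := e3
  rw [T_add, a1, a2, a3]
  ring

end Cfsg.Agent.Lib.E6Cubic.Poly
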