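import Cfsg.Agent.Lib.E6Cubic.Chain

/-!
# The stages of the chain: every isometry of the cubic form is a product of root elements
-/

set_option autoImplicit false
set_option linter.unusedSectionVars false
set_option linter.unusedVariables false
set_option maxRecDepth 100000

namespace Cfsg.Agent.Lib.E6Cubic.Stage

open Cfsg.Lie Matrix Cfsg.Agent.Lib.Chevalley.Reflect Cfsg.Agent.Lib.ChevIso.Act Cfsg.Agent.Lib.E6Cubic.Tbl
open Cfsg.Agent.Lib.E6Cubic.Fast Cfsg.Agent.Lib.E6Cubic.Poly Cfsg.Agent.Lib.E6Cubic.Gp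
open Cfsg.Agent.Lib.E6Cubic.Gen Cfsg.Agent.Lib.E6Cubic.Chain

variable {F : Type*} [Field F]

/-- Isometries fixing the vectors of the list are products of root elements. -/
def Red (F : Type*) [Field F] (I : List ℕ) : Prop := ∀ g ∈ E6univ F, Fix I g → g ∈ G0 F

/-- The coordinates forced to vanish by the constraints. -/
def zeroB (I : List ℕ) (j l : ℕ) : Bool := I.any fun i => Sk i j && Mt l i

/-- The coordinates to kill. -/
def killL (I : List ℕ) (j : ℕ) : List ℕ := L27.filter fun l => Sk l j && !zeroB I j l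

theorem mt_symm : L27.all (fun p => L27.all fun q => decide (Mt p q = Mt q p)) = true := by
  decide +kernel

lemma Mt_symm {p q : ℕ} (h : Mt p q = true) : Mt q p = true := by
  have h1 := mt_symm
  simp only [List.all_eq_true, decide_eq_true_eq] at h1
  have hq : q < 27 := by
    have h2 := class_all
    by_contra hq
    have h3 : thirdT p q = 27 := by
      have hlen : (List.range 27).all (fun p => decide ((thirdL.getD p []).length = 27)) = true := by decide +kernel
      simp only [List.all_eq_true, List.mem_range, decide_eq_true_eq] at hlen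
      have h4 := hlen p (thirdT_lt h).1
      exact List.getD_eq_default _ _ (by omega)
    have := (thirdT_lt h).2
    omega
  rw [← h1 p (mem_L27 (thirdT_lt h).1) q (mem_L27 hq)]
  exact h

section

variable {a : F} (ha0 : a ≠ 0) (ha1 : a ≠ 1)
include ha0 ha1

lemma third_facts {i l : ℕ} (hi : i < 27) (hl : l < 27) (h : Mt i l = true) :
    Mt i (thirdT i l) = true ∧ thirdT i (thirdT i l) = l ∧ thirdT i l < 27 := by
  have h1 := third_all
  simp only [List.all_eq_true, List.mem_range] at h1
  have h2 := h1 i hi l hl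
  rw [h] at h2
  simp only [Bool.not_true, Bool.false_or, Bool.and_eq_true, decide_eq_true_eq] at h2
  exact ⟨h2.1.1.1, h2.1.1.2, h2.1.2⟩

lemma zero_lemma {I : List ℕ} (hI : ∀ i ∈ I, i < 27) {j : ℕ} (hj27 : j < 27) {g : GL I27 F} (hg : g ∈ E6univ F)
    (hfix : Fix I g) {l : ℕ} (h : zeroB I j l = true) : co (ap g (ei F j)) l = 0 := by
  simp only [zeroB, List.any_eq_true, Bool.and_eq_true] at h
  obtain ⟨i, hi, hij, hli⟩ := h
  have hi27 := hI i hi
  have hl27 := (thirdT_lt hli).1
  have hil : Mt i l = true := Mt_symm hli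
  obtain ⟨-, -, hm⟩ := third_facts ha0 ha1 hi27 hl27 hil
  have key := Tau_ap hg ha0 ha1 (ei F j) (ei F i) (ap g⁻¹ (ei F (thirdT i l)))
  rw [hfix i hi, ap_inv_ap, co_ei hi27, co_ei hm, co_ei hj27, Tau_dl_third _ hi27 hl27 hil] at key
  have h0 : Tau (dl F j) (dl F i) (co (ap g⁻¹ (ei F (thirdT i l)))) = 0 := by
    apply Tau_eq_zero hi27
    intro p hp
    have h1 : p ≠ j := by
      rintro rfl
      have := ((class_at hi27 hj27).2.1 hij).1
      rw [this] at hp
      cases hp
    simp [dl, h1]
  rw [h0] at key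
  rcases mul_eq_zero.1 key with h2 | h2
  · exact absurd h2 (sgn_ne hi27 hl27 hil)
  · exact h2

lemma start_M {j i₀ : ℕ} (hj27 : j < 27) (hi27 : i₀ < 27) {g : GL I27 F} (hg : g ∈ E6univ F)
    (hfix : ap g (ei F i₀) = ei F i₀) (hm : Mt j i₀ = true) : ∃ p, Mt p i₀ = true ∧ co (ap g (ei F j)) p ≠ 0 := by
  by_contra hcon
  push Not at hcon
  have hij : Mt i₀ j = true := Mt_symm hm
  obtain ⟨-, -, hm3⟩ := third_facts ha0 ha1 hi27 hj27 hij
  have key := Tau_ap hg ha0 ha1 (ei F j) (ei F i₀) (ei F (thirdT i₀ j))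
  rw [hfix, co_ei hi27, co_ei hm3, co_ei hj27, Tau_dl_third _ hi27 hj27 hij, Tau_eq_zero hi27 hcon] at key
  have h2 : dl F j j = 1 := by simp [dl]
  rw [h2, mul_one] at key
  exact sgn_ne hi27 hj27 hij key.symm

/-- The last part of a stage. -/
theorem finish {I : List ℕ} (hI : ∀ i ∈ I, i < 27) {j : ℕ} (hj27 : j < 27)
    (hok : (killL I j).all (fun l => allowedI (rootT l j) I) = true) (hred : Red F (j :: I)) {g : GL I27 F}
    (hg : g ∈ E6univ F) (hfix : Fix I g) (h1 : co (ap g (ei F j)) j = 1) : g ∈ G0 F := by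
  have hS : ∀ l ∈ killL I j, Sk l j = true ∧ allowedI (rootT l j) I = true := by
    intro l hl
    have h2 := List.mem_filter.1 hl
    simp only [Bool.and_eq_true] at h2
    simp only [List.all_eq_true] at hok
    exact ⟨h2.2.1, hok l hl⟩
  have hne : co (ap g (ei F j)) j ≠ 0 := by
    rw [h1]
    exact one_ne_zero
  obtain ⟨k, ⟨hk0, hkf⟩, e1, e2, e3⟩ := kill hI hj27 (killL I j) hS (ap g (ei F j)) hne
  have hG : k * g ∈ E6univ F := Subgroup.mul_mem _ (G0_le hk0) hg
  have hsk : ∀ p, Sk p j = true → co (ap (k * g) (ei F j)) p = 0 := by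
    intro p hp
    rw [ap_mul]
    by_cases hmem : p ∈ killL I j
    · exact e2 p hmem
    · rw [e3 p hp hmem]
      apply zero_lemma ha0 ha1 hI hj27 hg hfix
      by_contra h3
      apply hmem
      apply List.mem_filter.2
      refine ⟨mem_L27 (rootT_lt hp).1, ?_⟩
      simp only [Bool.and_eq_true, hp, true_and]
      simpa using h3
  have hjj : co (ap (k * g) (ei F j)) j = 1 := by
    rw [ap_mul, e1, h1]
  have hzero : ∀ m, m < 27 → An (co (ap (k * g) (ei F j))) (dl F m) = 0 := by
    intro m hm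
    have key := An_ap hG ha0 ha1 (ei F j) (ap (k * g)⁻¹ (ei F m))
    rw [ap_inv_ap, co_ei hm, co_ei hj27, An_dl_left] at key
    exact key
  have hmt : ∀ l, Mt l j = true → co (ap (k * g) (ei F j)) l = 0 := by
    intro l hl
    apply sing hj27 hl (by rw [hjj]; exact one_ne_zero) hsk
    apply hzero
    obtain ⟨-, -, h5⟩ := third_facts ha0 ha1 (thirdT_lt hl).1 hj27 hl
    exact h5
  have hv : ap (k * g) (ei F j) = ei F j := by
    apply co_inj
    rw [co_ei hj27]
    funext n
    by_cases hn : n < 27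
    · rcases (class_at hn hj27).1 with h5 | h5 | h5
      · subst h5
        rw [hjj]
        simp [dl]
      · rw [hsk n h5]
        have := ((class_at hn hj27).2.1 h5).2
        simp [dl, this]
      · rw [hmt n h5]
        have := ((class_at hn hj27).2.2 h5).2
        simp [dl, this]
    · have : n ≠ j := by omega
      simp [co, hn, dl, this]
  have hfix' : Fix (j :: I) (k * g) := by
    intro i hi
    rcases List.mem_cons.1 hi with rfl | hi
    · exact hv
    · rw [ap_mul, hfix i hi, hkf i hi]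
  have h6 := hred _ hG hfix'
  have h7 : g = k⁻¹ * (k * g) := by group
  rw [h7]
  exact Subgroup.mul_mem _ (Subgroup.inv_mem _ hk0) h6

/-- After moving the coordinate. -/
theorem finish_of_path {I : List ℕ} (hI : ∀ i ∈ I, i < 27) {j p : ℕ} (hj27 : j < 27)
    (hok : (killL I j).all (fun l => allowedI (rootT l j) I) = true) (hred : Red F (j :: I)) {g : GL I27 F}
    (hg : g ∈ E6univ F) (hfix : Fix I g) (hp : co (ap g (ei F j)) p ≠ 0) (hpath : pathOK I p j = true) : g ∈ G0 F := by
  obtain ⟨k, ⟨hk0, hkf⟩, e1⟩ := path_ex hI hpath _ hp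
  have h1 : k * g ∈ G0 F := by
    apply finish ha0 ha1 hI hj27 hok hred (Subgroup.mul_mem _ (G0_le hk0) hg) (hkf.mul hfix)
    rw [ap_mul, e1]
  have h7 : g = k⁻¹ * (k * g) := by group
  rw [h7]
  exact Subgroup.mul_mem _ (Subgroup.inv_mem _ hk0) h1

end

/-- The kinds of stages. -/
inductive Ty where
  | N : Ty
  | M (i : ℕ) : Ty
  | E (a b : ℕ) : Ty

/-- The check of a stage. -/
noncomputable def stageOK (I : List ℕ) (j : ℕ) (ty : Ty) : Bool :=
  decide (j < 27) && I.all (fun i => decide (i < 27)) && (killL I j).all (fun l => allowedI (rootT l j) I) &&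
  match ty with
  | .N => L27.all fun p => pathOK I p j
  | .M i => decide (i ∈ I) && Mt j i && L27.all fun p => !(Mt p i) || zeroB I j p || pathOK I p j
  | .E a b => decide (a ∈ I) && decide (b ∈ I) && Mt a b && decide (thirdT a b = j)

lemma ei_ne_zero {j : ℕ} (hj : j < 27) : ei F j ≠ 0 := by
  intro h
  have h1 := co_ei (F := F) hj
  rw [h] at h1
  have h2 := congrFun h1 j
  simp [co, hj, dl] at h2

/-- One stage. -/
theorem step {a : F} (ha0 : a ≠ 0) (ha1 : a ≠ 1) {I : List ℕ} {j : ℕ} {ty : Ty} (h : stageOK I j ty = true)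
    (hred : Red F (j :: I)) : Red F I := by
  intro g hg hfix
  simp only [stageOK, Bool.and_eq_true, decide_eq_true_eq] at h
  obtain ⟨⟨⟨hj27, hI'⟩, hok⟩, hty⟩ := h
  have hI : ∀ i ∈ I, i < 27 := by
    intro i hi
    simp only [List.all_eq_true, decide_eq_true_eq] at hI'
    exact hI' i hi
  cases ty with
  | N =>
    simp only [List.all_eq_true] at hty
    have hne : ap g (ei F j) ≠ 0 := by
      intro h0
      have h1 := ap_ap_inv g (ei F j)
      rw [h0] at h1
      have h2 : ap g⁻¹ (0 : I27 → F) = 0 := by simp [ap]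
      rw [h2] at h1
      exact ei_ne_zero hj27 h1.symm
    have : ∃ p, p < 27 ∧ co (ap g (ei F j)) p ≠ 0 := by
      by_contra hcon
      push Not at hcon
      apply hne
      apply co_inj
      funext n
      by_cases hn : n < 27
      · rw [hcon n hn]
        simp [co, hn]
      · simp [co, hn]
    obtain ⟨p, hp, hp2⟩ := this
    exact finish_of_path ha0 ha1 hI hj27 hok hred hg hfix hp2 (hty p (mem_L27 hp))
  | M i =>
    simp only [Bool.and_eq_true, decide_eq_true_eq, List.all_eq_true, Bool.or_eq_true] at hty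
    obtain ⟨⟨hi, hm⟩, hall⟩ := hty
    obtain ⟨p, hp1, hp2⟩ := start_M ha0 ha1 hj27 (hI i hi) hg (hfix i hi) hm
    have hp27 := (thirdT_lt hp1).1
    rcases hall p (mem_L27 hp27) with (h1 | h1) | h1
    · rw [hp1] at h1
      cases h1
    · exact absurd (zero_lemma ha0 ha1 hI hj27 hg hfix h1) hp2
    · exact finish_of_path ha0 ha1 hI hj27 hok hred hg hfix hp2 h1
  | E a' b' =>
    simp only [Bool.and_eq_true, decide_eq_true_eq] at hty
    obtain ⟨⟨⟨ha', hb'⟩, hab⟩, hthird⟩ := hty
    apply finish ha0 ha1 hI hj27 hok hred hg hfix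
    have ha27 := hI _ ha'
    have hb27 := hI _ hb'
    obtain ⟨h1, h2, -⟩ := third_facts ha0 ha1 ha27 hb27 hab
    rw [hthird] at h1 h2
    have key := Tau_ap hg ha0 ha1 (ei F j) (ei F a') (ei F b')
    rw [hfix _ ha', hfix _ hb', co_ei ha27, co_ei hb27, co_ei hj27] at key
    have e : Tau (co (ap g (ei F j))) (dl F a') (dl F b') = ((sgnT a' b' : ℤ) : F) * co (ap g (ei F j)) j := by
      have := Tau_dl_third (F := F) (co (ap g (ei F j))) ha27 hj27 h1
      rwa [h2] at this
    have e' : Tau (dl F j) (dl F a') (dl F b') = ((sgnT a' b' : ℤ) : F) * dl F j j := by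
      have := Tau_dl_third (F := F) (dl F j) ha27 hj27 h1
      rwa [h2] at this
    rw [e, e'] at key
    have hsn := sgn_ne (F := F) ha27 hj27 h1
    rw [h2] at hsn
    have h3 := mul_left_cancel₀ hsn key
    rw [h3]
    simp [dl]

/-- The whole chain. -/
noncomputable def good : List ℕ → List (ℕ × Ty) → Bool
  | I, [] => L27.all fun i => decide (i ∈ I)
  | I, s :: S => stageOK I s.1 s.2 && good (s.1 :: I) S

theorem red_all (I : List ℕ) (h : L27.all (fun i => decide (i ∈ I)) = true) : Red F I := by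
  intro g hg hfix
  simp only [List.all_eq_true, decide_eq_true_eq] at h
  have : g = 1 := by
    apply Units.ext
    ext x b
    have h1 := hfix _ (h _ (mem_L27 (cd_lt b)))
    have e : ei F (E27.cd b) = Pi.single b 1 := by
      simp only [ei, E27.dc_cd]
    rw [e] at h1
    have h2 := congrFun h1 x
    simp only [ap, Matrix.mulVec_single_one] at h2
    simpa [Matrix.one_apply, Pi.single_apply] using h2
  rw [this]
  exact Subgroup.one_mem _

theorem red_of_good {a : F} (ha0 : a ≠ 0) (ha1 : a ≠ 1) (S : List (ℕ × Ty)) : ∀ I, good I S = true → Red F I := by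
  induction S with
  | nil =>
    intro I h
    exact red_all I h
  | cons s S ih =>
    intro I h
    simp only [good, Bool.and_eq_true] at h
    exact step ha0 ha1 h.1 (ih _ h.2)

/-- The chain of stages. -/
def chainL : List (ℕ × Ty) :=
  [(0, .N), (4, .M 0), (8, .E 0 4), (1, .M 8), (3, .E 8 1), (2, .M 4), (6, .E 4 2), (5, .E 1 6), (7, .E 0 5),
   (9, .M 0), (18, .E 0 9), (12, .E 1 18), (15, .E 2 18), (19, .E 4 12), (20, .E 8 15), (10, .M 0), (14, .E 15 10),
   (16, .E 9 14), (11, .E 12 16), (13, .E 15 11), (17, .E 9 13), (21, .E 0 10), (22, .E 4 13), (23, .E 8 16),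
   (24, .E 0 11), (25, .E 4 14), (26, .E 8 17)]

theorem good_chain : good [] chainL = true := by
  decide +kernel

/-- Every isometry is a product of root elements. -/
theorem mem_G0 {a : F} (ha0 : a ≠ 0) (ha1 : a ≠ 1) {g : GL I27 F} (hg : g ∈ E6univ F) : g ∈ G0 F :=
  red_of_good ha0 ha1 chainL [] good_chain g hg (fun i hi => by simp at hi)

end Cfsg.Agent.Lib.E6Cubic.Stage
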